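import Mathlib
import Cfsg.Agent.H952.Jordan

/-!
Every partition is the Jordan type of a nilpotent endomorphism.
-/

set_option autoImplicit false

namespace Cfsg.Agent.H952.Jordan

open Module

variable {F : Type*} [Field F]

/-- The shift on `F^b`: one nilpotent Jordan block. -/
def shift (F : Type*) [Field F] (b : ℕ) : Module.End F (Fin b → F) where
  toFun f := fun i => if h : (i : ℕ) = 0 then 0 else f ⟨(i : ℕ) - 1, by omega⟩
  map_add' f g := by
    funext i
    by_cases h : (i : ℕ) = 0
    · simp [h]
    · simp [h]
  map_smul' c f := by
    funext i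
    by_cases h : (i : ℕ) = 0
    · simp [h]
    · simp [h]

theorem shift_apply (b : ℕ) (f : Fin b → F) (i : Fin b) :
    shift F b f i = if h : (i : ℕ) = 0 then 0 else f ⟨(i : ℕ) - 1, by omega⟩ := rfl

theorem shift_pow_apply (b : ℕ) (k : ℕ) : ∀ (f : Fin b → F) (i : Fin b), (i : ℕ) < k →
    (shift F b ^ k) f i = 0 := by
  induction k with
  | zero => intro f i hi; omega
  | succ k ih =>
    intro f i hi
    rw [pow_succ', Module.End.mul_apply, shift_apply]
    by_cases h : (i : ℕ) = 0
    · rw [dif_pos h]
    · rw [dif_neg h]
      exact ih f _ (show (i : ℕ) - 1 < k by omega)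

theorem shift_pow_self (b : ℕ) : shift F b ^ b = 0 := by
  ext f i
  exact shift_pow_apply b b _ i i.2

theorem finrank_ker_shift_le (b : ℕ) : finrank F (LinearMap.ker (shift F b)) ≤ 1 := by
  rcases b with _ | b
  · have : finrank F (LinearMap.ker (shift F 0)) ≤ finrank F (Fin 0 → F) :=
      Submodule.finrank_le _
    rw [finrank_fin_fun] at this
    omega
  · let φ : LinearMap.ker (shift F (b + 1)) →ₗ[F] F :=
      (LinearMap.proj (Fin.last b)).comp (LinearMap.ker (shift F (b + 1))).subtype
    have hφ : Function.Injective φ := by
      rw [injective_iff_map_eq_zero]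
      intro f hf
      apply Subtype.ext
      funext i
      by_cases hi : i = Fin.last b
      · rw [hi]; exact hf
      · have hlt : (i : ℕ) < b := by
          have h1 := i.2
          have h2 : (i : ℕ) ≠ b := fun h => hi (Fin.ext h)
          omega
        have h3 := congrFun (LinearMap.mem_ker.1 f.2) ⟨(i : ℕ) + 1, by omega⟩
        rw [shift_apply, dif_neg (show ¬ ((i : ℕ) + 1 = 0) by omega)] at h3
        exact h3
    have := LinearMap.finrank_le_finrank_of_injective hφ
    rwa [finrank_self] at this

theorem finrank_range_shift_pow (b k : ℕ) :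
    finrank F (LinearMap.range (shift F b ^ k)) = b - k := by
  have hrec : ∀ k, finrank F (LinearMap.range (shift F b ^ (k + 1))) +
      finrank F (LinearMap.ker (shift F b) ⊓ LinearMap.range (shift F b ^ k) :
        Submodule F (Fin b → F)) = finrank F (LinearMap.range (shift F b ^ k)) := by
    intro k
    rw [LinearMap.range_eq_map, LinearMap.range_eq_map, map_pow_succ]
    exact finrank_map_add _ _
  have hker : ∀ k, finrank F (LinearMap.ker (shift F b) ⊓ LinearMap.range (shift F b ^ k) :
        Submodule F (Fin b → F)) ≤ 1 := fun k =>
    (Submodule.finrank_mono inf_le_left).trans (finrank_ker_shift_le b)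
  have h0 : finrank F (LinearMap.range (shift F b ^ 0)) = b := by
    rw [pow_zero, Module.End.one_eq_id, LinearMap.range_id, finrank_top, finrank_fin_fun]
  have hb : finrank F (LinearMap.range (shift F b ^ b)) = 0 := by
    rw [shift_pow_self, LinearMap.range_zero, finrank_bot]
  have hlow : ∀ k, b - k ≤ finrank F (LinearMap.range (shift F b ^ k)) := by
    intro k
    induction k with
    | zero => rw [h0]; omega
    | succ k ih =>
      have e1 := hrec k
      have e2 := hker k
      omega
  have hanti : ∀ k, finrank F (LinearMap.range (shift F b ^ (k + 1))) ≤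
      finrank F (LinearMap.range (shift F b ^ k)) := fun k => by
    have := hrec k
    omega
  have hup : ∀ j, j ≤ b → finrank F (LinearMap.range (shift F b ^ (b - j))) ≤ j := by
    intro j
    induction j with
    | zero => intro _; rw [Nat.sub_zero, hb]
    | succ j ih =>
      intro hj
      have e0 := ih (by omega)
      have e1 := hrec (b - (j + 1))
      have e2 := hker (b - (j + 1))
      have e3 : b - (j + 1) + 1 = b - j := by omega
      rw [e3] at e1
      omega
  rcases le_total k b with hk | hk
  · have e1 := hup (b - k) (by omega)
    rw [show b - (b - k) = k by omega] at e1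
    exact le_antisymm e1 (hlow k)
  · have e1 : finrank F (LinearMap.range (shift F b ^ k)) ≤ 0 := by
      rw [← hb]
      exact antitone_nat_of_succ_le (f := fun k => finrank F (LinearMap.range (shift F b ^ k)))
        hanti hk
    omega

theorem finrank_range_conj {V W : Type*} [AddCommGroup V] [Module F V] [AddCommGroup W]
    [Module F W] (e : V ≃ₗ[F] W) (f : Module.End F V) :
    finrank F (LinearMap.range (e.conj f)) = finrank F (LinearMap.range f) := by
  have h : LinearMap.range (e.conj f) = (LinearMap.range f).map (e : V →ₗ[F] W) := by
    rw [LinearEquiv.conj_apply, LinearMap.range_comp, LinearEquiv.range, Submodule.map_top,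
      LinearMap.range_comp]
  rw [h]
  exact LinearEquiv.finrank_map_eq e _

theorem finrank_prod_submodule {V W : Type*} [AddCommGroup V] [Module F V] [AddCommGroup W]
    [Module F W] [FiniteDimensional F V] [FiniteDimensional F W] (A : Submodule F V)
    (B : Submodule F W) : finrank F (A.prod B) = finrank F A + finrank F B := by
  have h : A.prod B = LinearMap.range (A.subtype.prodMap B.subtype) := by
    rw [LinearMap.range_prodMap, Submodule.range_subtype, Submodule.range_subtype]
  rw [← finrank_prod, h]
  refine LinearMap.finrank_range_of_inj ?_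
  rintro ⟨a, b⟩ ⟨c, d⟩ hab
  simp only [LinearMap.prodMap_apply, Submodule.subtype_apply, Prod.mk.injEq] at hab
  exact Prod.ext (Subtype.ext hab.1) (Subtype.ext hab.2)

theorem exists_end (s : Multiset ℕ) : ∃ N : Module.End F (Fin s.sum → F),
    ∀ k, finrank F (LinearMap.range (N ^ k)) = (s.map (fun b => b - k)).sum := by
  induction s using Multiset.induction with
  | empty =>
    refine ⟨0, fun k => ?_⟩
    rw [Multiset.map_zero, Multiset.sum_zero]
    apply Nat.eq_zero_of_le_zero
    refine (Submodule.finrank_le _).trans ?_
    rw [finrank_fin_fun]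
  | cons b s ih =>
    obtain ⟨N, hN⟩ := ih
    have hfr : finrank F ((Fin b → F) × (Fin s.sum → F)) = finrank F (Fin (b ::ₘ s).sum → F) := by
      rw [finrank_prod, finrank_fin_fun, finrank_fin_fun, finrank_fin_fun, Multiset.sum_cons]
    let e := LinearEquiv.ofFinrankEq _ _ hfr
    refine ⟨e.conj ((shift F b).prodMap N), fun k => ?_⟩
    have h1 : (e.conj ((shift F b).prodMap N)) ^ k =
        e.conj ((shift F b ^ k).prodMap (N ^ k)) := by
      induction k with
      | zero =>
        rw [pow_zero, pow_zero, pow_zero]
        apply LinearMap.ext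
        intro v
        simp [LinearEquiv.conj_apply]
      | succ k ih =>
        rw [pow_succ, ih, pow_succ, pow_succ]
        apply LinearMap.ext
        intro v
        simp [LinearEquiv.conj_apply]
    rw [h1, finrank_range_conj, Multiset.map_cons, Multiset.sum_cons, ← hN k,
      ← finrank_range_shift_pow (F := F) b k, LinearMap.range_prodMap,
      finrank_prod_submodule]

end Cfsg.Agent.H952.Jordan
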