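import Mathlib
import Cfsg.Agent.H952.Alt

/-!
Pairs of totally isotropic subspaces spanning the space, invariant (as pairs) under an isometry
whose square is `±1`.
-/

set_option autoImplicit false

namespace Cfsg.Agent.H952.Alt

open Module Submodule

variable {F V : Type*} [Field F] [AddCommGroup V] [Module F V]
variable {B : LinearMap.BilinForm F V} {x : Module.End F V}

theorem TI.sup (hA : B.IsAlt) {W W' : Submodule F V} (hW : TI B W) (hW' : TI B W')
    (ho : ∀ u ∈ W, ∀ v ∈ W', B u v = 0) : TI B (W ⊔ W') := by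
  intro u hu v hv
  obtain ⟨a, ha, b, hb, rfl⟩ := Submodule.mem_sup.1 hu
  obtain ⟨c, hc, d, hd, rfl⟩ := Submodule.mem_sup.1 hv
  simp only [map_add, LinearMap.add_apply, hW a ha c hc,
    hW' b hb d hd, ho a ha d hd, eq_zero_swap hA (ho c hc b hb), add_zero]

theorem TI.bot : TI B (⊥ : Submodule F V) := by
  intro u hu v _
  rw [(Submodule.mem_bot F).1 hu, map_zero, LinearMap.zero_apply]

theorem TI.singleton (hA : B.IsAlt) (u : V) : TI B (span F {u}) := by
  intro v hv w hw
  obtain ⟨a, rfl⟩ := Submodule.mem_span_singleton.1 hv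
  obtain ⟨b, rfl⟩ := Submodule.mem_span_singleton.1 hw
  simp only [map_smul, LinearMap.smul_apply, hA.self_eq_zero, smul_zero]

/-- Two totally isotropic subspaces spanning a non-degenerate space are complementary. -/
theorem TI.isCompl (hnd : Nd B ⊤) {U W : Submodule F V} (hU : TI B U)
    (hW : TI B W) (h : U ⊔ W = ⊤) : IsCompl U W := by
  refine IsCompl.of_eq ?_ h
  rw [eq_bot_iff]
  intro v hv
  rw [Submodule.mem_bot]
  by_contra h0
  obtain ⟨w, _, hne⟩ := hnd v Submodule.mem_top h0
  have hw : w ∈ U ⊔ W := by rw [h]; exact Submodule.mem_top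
  obtain ⟨a, ha, b, hb, rfl⟩ := Submodule.mem_sup.1 hw
  apply hne
  rw [map_add, hU v hv.1 a ha, hW v hv.2 b hb, add_zero]

variable [FiniteDimensional F V]

theorem pair_step (hA : B.IsAlt) {W : Submodule F V} {u w : V} (hu : u ∈ W) (hw : w ∈ W)
    (hne : B u w ≠ 0) {U U' : Submodule F V} (hU : TI B U) (hU' : TI B U')
    (hs : U ⊔ U' = W ⊓ B.orthogonal (span F {u, w})) :
    TI B (span F {u} ⊔ U) ∧ TI B (span F {w} ⊔ U') ∧
      (span F {u} ⊔ U) ⊔ (span F {w} ⊔ U') = W := by
  have hEW : (span F {u, w} : Submodule F V) ≤ W := by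
    rw [Submodule.span_le]
    rintro y (rfl | rfl)
    · exact hu
    · exact hw
  have ho := split_orth (B := B) (W := W) (E := span F {u, w}) hA
  refine ⟨(TI.singleton hA u).sup hA hU ?_, (TI.singleton hA w).sup hA hU' ?_, ?_⟩
  · intro y hy v hv
    exact ho y (Submodule.span_mono (by simp) hy) v (hs ▸ Submodule.mem_sup_left hv)
  · intro y hy v hv
    exact ho y (Submodule.span_mono (by simp) hy) v (hs ▸ Submodule.mem_sup_right hv)
  · rw [sup_sup_sup_comm, hs, ← Submodule.span_union, Set.singleton_union]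
    exact split_sup hA (Nd.pair hA hne) hEW

theorem exists_swap_pair (hA : B.IsAlt) (hinj : Function.Injective x)
    (hx : ∀ u v, B (x u) (x v) = B u v) (hxx : ∀ v, x (x v) = - v) (h2 : (2 : F) ≠ 0) (n : ℕ) :
    ∀ W : Submodule F V, finrank F W = n → Nd B W → Inv x W →
      ∃ U U' : Submodule F V, TI B U ∧ TI B U' ∧ U ⊔ U' = W ∧ U.map x = U' ∧ U'.map x = U := by
  induction n using Nat.strong_induction_on with
  | _ n ih =>
    intro W hWn hW hWx
    by_cases hW0 : W = ⊥
    · exact ⟨⊥, ⊥, TI.bot, TI.bot, by rw [hW0, sup_bot_eq], Submodule.map_bot _,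
        Submodule.map_bot _⟩
    obtain ⟨v, hv, hne⟩ : ∃ v ∈ W, B v (x v) ≠ 0 := by
      by_contra hcon
      push Not at hcon
      obtain ⟨u, hu, hu0⟩ := Submodule.exists_mem_ne_zero_of_ne_bot hW0
      have hxu0 : x u ≠ 0 := fun h => hu0 (hinj (by rw [h, map_zero]))
      obtain ⟨w, hw, hne⟩ := hW (x u) (hWx u hu) hxu0
      have h1 := hcon (u + w) (Submodule.add_mem _ hu hw)
      simp only [map_add, LinearMap.add_apply, hcon u hu, hcon w hw, zero_add, add_zero] at h1
      have h3 : B u (x w) = - B (x u) w := by rw [← hx, hxx, map_neg]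
      have h4 : B w (x u) = - B (x u) w := swap hA _ _
      rw [h3, h4] at h1
      have h5 : 2 * B (x u) w = 0 := by linear_combination -h1
      exact hne ((mul_eq_zero.1 h5).resolve_left h2)
    have hEx : Inv x (span F {v, x v}) := by
      intro w hw
      obtain ⟨a, b, rfl⟩ := Submodule.mem_span_pair.1 hw
      rw [map_add, map_smul, map_smul, hxx, Submodule.mem_span_pair]
      exact ⟨-b, a, by rw [neg_smul, smul_neg, add_comm]⟩
    have hEn := Nd.pair hA hne
    have hEW : (span F {v, x v} : Submodule F V) ≤ W := by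
      rw [Submodule.span_le]
      rintro w (rfl | rfl)
      · exact hv
      · exact hWx _ hv
    have hfr := split_finrank hA hEn hEW
    rw [finrank_pair hA hne] at hfr
    obtain ⟨U, U', hU, hU', hs, h1, h2⟩ := ih _ (by omega) (W ⊓ B.orthogonal (span F {v, x v})) rfl
      (split_nd hA hW hEn hEW) (split_inv hA hinj hx hWx hEx)
    obtain ⟨k1, k2, k3⟩ := pair_step hA hv (hWx v hv) hne hU hU' hs
    refine ⟨_, _, k1, k2, k3, ?_, ?_⟩
    · rw [Submodule.map_sup, h1, Submodule.map_span, Set.image_singleton]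
    · rw [Submodule.map_sup, h2, Submodule.map_span, Set.image_singleton, hxx]
      congr 1
      rw [← Set.neg_singleton, Submodule.span_neg]

theorem exists_fix_pair (hA : B.IsAlt) (hinj : Function.Injective x)
    (hx : ∀ u v, B (x u) (x v) = B u v) (hxx : ∀ v, x (x v) = v) (h2 : (2 : F) ≠ 0) (n : ℕ) :
    ∀ W : Submodule F V, finrank F W = n → Nd B W → Inv x W →
      ∃ U U' : Submodule F V, TI B U ∧ TI B U' ∧ U ⊔ U' = W ∧ U.map x = U ∧ U'.map x = U' := by
  induction n using Nat.strong_induction_on with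
  | _ n ih =>
    intro W hWn hW hWx
    by_cases hW0 : W = ⊥
    · exact ⟨⊥, ⊥, TI.bot, TI.bot, by rw [hW0, sup_bot_eq], Submodule.map_bot _,
        Submodule.map_bot _⟩
    -- an eigenvector
    obtain ⟨ε, hε, u, hu, hu0, hxu⟩ : ∃ ε : F, ε * ε = 1 ∧ ∃ u ∈ W, u ≠ 0 ∧ x u = ε • u := by
      obtain ⟨v, hv, hv0⟩ := Submodule.exists_mem_ne_zero_of_ne_bot hW0
      by_cases h1 : v + x v = 0
      · refine ⟨-1, by ring, v, hv, hv0, ?_⟩
        rw [neg_one_smul]
        exact (neg_eq_of_add_eq_zero_right h1).symm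
      · exact ⟨1, by ring, v + x v, Submodule.add_mem _ hv (hWx v hv), h1, by
          rw [map_add, hxx, one_smul, add_comm]⟩
    obtain ⟨w, hw, hne⟩ := hW u hu hu0
    set w' := w + ε • x w with hw'
    have hw'W : w' ∈ W := Submodule.add_mem _ hw (Submodule.smul_mem _ _ (hWx w hw))
    have hxw' : x w' = ε • w' := by
      rw [hw', map_add, map_smul, hxx, smul_add, smul_smul, hε, one_smul, add_comm]
    have hne' : B u w' ≠ 0 := by
      have h3 : B u (x w) = ε * B u w := by
        rw [← hx, hxx, hxu, map_smul, LinearMap.smul_apply, smul_eq_mul]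
      rw [hw', map_add, map_smul, smul_eq_mul, h3, ← mul_assoc, hε, one_mul, ← two_mul]
      exact mul_ne_zero h2 hne
    have hEx : Inv x (span F {u, w'}) := by
      intro y hy
      obtain ⟨a, b, rfl⟩ := Submodule.mem_span_pair.1 hy
      rw [map_add, map_smul, map_smul, hxu, hxw', Submodule.mem_span_pair]
      exact ⟨a * ε, b * ε, by rw [mul_smul, mul_smul]⟩
    have hEn := Nd.pair hA hne'
    have hEW : (span F {u, w'} : Submodule F V) ≤ W := by
      rw [Submodule.span_le]
      rintro y (rfl | rfl)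
      · exact hu
      · exact hw'W
    have hfr := split_finrank hA hEn hEW
    rw [finrank_pair hA hne'] at hfr
    obtain ⟨U, U', hU, hU', hs, h1, h2⟩ := ih _ (by omega) (W ⊓ B.orthogonal (span F {u, w'})) rfl
      (split_nd hA hW hEn hEW) (split_inv hA hinj hx hWx hEx)
    obtain ⟨k1, k2, k3⟩ := pair_step hA hu hw'W hne' hU hU' hs
    have hε0 : IsUnit ε := IsUnit.of_mul_eq_one _ hε
    refine ⟨_, _, k1, k2, k3, ?_, ?_⟩
    · rw [Submodule.map_sup, h1, Submodule.map_span, Set.image_singleton, hxu,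
        Submodule.span_singleton_smul_eq hε0]
    · rw [Submodule.map_sup, h2, Submodule.map_span, Set.image_singleton, hxw',
        Submodule.span_singleton_smul_eq hε0]

end Cfsg.Agent.H952.Alt
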