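import Mathlib
import Cfsg.Agent.H952.SympTrans
import Cfsg.Agent.H952.AltInvol
import Cfsg.Agent.H952.Comb

/-!
Isometries of prime order of symplectic spaces and invariant non-degenerate subspaces of given
dimension.
-/

set_option autoImplicit false

namespace Cfsg.Agent.H952.NdSub

open Module Submodule
open Cfsg.Agent.H952.Alt Cfsg.Agent.H952.Semi Cfsg.Agent.H952.SympSemi

set_option linter.unusedSectionVars false

variable {F V : Type*} [Field F] [AddCommGroup V] [Module F V] [FiniteDimensional F V]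
  {B : LinearMap.BilinForm F V} {x : Module.End F V}

/-- Odd order prime to the characteristic: existence. -/
theorem exists_nd_inv [Fintype F] (hA : B.IsAlt) {r : ℕ} [Fact r.Prime] (hr2 : r ≠ 2)
    (hrF : (r : F) ≠ 0) (hxr : x ^ r = 1) (hx : ∀ u v, B (x u) (x v) = B u v)
    (hV : Nd B ⊤) {m : ℕ} (hm : Even m) (hmn : m ≤ finrank F V)
    (h : m % cc (Fintype.card F) r ≤ finrank F V % cc (Fintype.card F) r) :
    ∃ W : Submodule F V, Nd B W ∧ Inv x W ∧ finrank F W = m := by
  have hord := orderOf_pos (coprime_card (F := F) hrF)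
  have hc0 := cc_pos hord
  set c := cc (Fintype.card F) r with hc
  have hinv : Inv x (⊤ : Submodule F V) := fun v _ => mem_top
  have hC := nd_comm hA hrF hxr hx hV hinv
  have hF' := nd_fix (B := B) hrF hxr hx hV hinv
  obtain ⟨j, hj⟩ := cc_dvd_comm hA hrF hxr hx hV hinv
  have hsum : finrank F ((⊤ : Submodule F V) ⊓ LinearMap.ker (x - 1) : Submodule F V) +
      finrank F ((⊤ : Submodule F V).map (x - 1)) = finrank F V := by
    rw [finrank_fix_add, finrank_top]
  have hce : Even c := cc_even _ _
  set a := min j (m / c) with ha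
  obtain ⟨E, hE1, hE2, hE3, hE4⟩ := exists_mul hA hr2 hrF hxr hx hord a
    ((⊤ : Submodule F V).map (x - 1)) hC (inv_map_sub hinv) (comm_inf_ker hrF hxr _)
    (by rw [hj]; exact Nat.mul_le_mul_left _ (min_le_left _ _))
  have hcm := Nat.div_add_mod m c
  have hcn := Nat.div_add_mod (finrank F V) c
  have hca : c * a ≤ m := by
    have : c * a ≤ c * (m / c) := Nat.mul_le_mul_left _ (min_le_right _ _)
    omega
  have hle : m - c * a ≤ finrank F ((⊤ : Submodule F V) ⊓ LinearMap.ker (x - 1) :
      Submodule F V) := by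
    rcases le_total j (m / c) with hjm | hjm
    · rw [ha, min_eq_left hjm, ← hc] at *
      rw [← hc] at hj
      omega
    · rw [ha, min_eq_right hjm]
      rw [← hc] at hj
      have h1 : c * j ≤ c * (finrank F V / c) := by
        apply Nat.mul_le_mul_left
        rw [Nat.le_div_iff_mul_le hc0, mul_comm]
        omega
      omega
  obtain ⟨k, hk⟩ := (Nat.even_sub hca).2 (iff_of_true hm (hce.mul_right a))
  obtain ⟨E', hE'1, hE'2, hE'3⟩ := exists_even_dim hA k _ hF' (by omega)
  have ho : ∀ u ∈ E, ∀ v ∈ E', B u v = 0 := fun u hu v hv =>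
    eq_zero_swap hA (orth_fix_comm hx ⊤ ⊤ v (hE'1 hv) u (hE1 hu))
  refine ⟨E ⊔ E', Nd.sup hA hE2 hE'2 ho, Inv.sup hE3 ?_, ?_⟩
  · intro v hv
    rw [mem_ker_sub.1 (hE'1 hv).2]
    exact hv
  · have hd := disjoint_of_orth hA hE2 ho
    have := finrank_sup_add_finrank_inf_eq E E'
    rw [hd.eq_bot, finrank_bot] at this
    rw [hE4, hE'3, ← hc] at this
    omega

/-- Odd order prime to the characteristic: an isometry with maximal commutator space restricts the
dimensions of the invariant non-degenerate subspaces. -/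
theorem of_nd_inv [Fintype F] (hA : B.IsAlt) {r : ℕ} [Fact r.Prime]
    (hrF : (r : F) ≠ 0) (hxr : x ^ r = 1) (hx : ∀ u v, B (x u) (x v) = B u v)
    (hmax : finrank F (LinearMap.ker (x - 1)) = finrank F V % cc (Fintype.card F) r)
    {W : Submodule F V} (hW : Nd B W) (hWx : Inv x W) :
    finrank F W % cc (Fintype.card F) r ≤ finrank F V % cc (Fintype.card F) r ∧
      (cc (Fintype.card F) r ≤ finrank F W ∨
        finrank F W ≤ finrank F V % cc (Fintype.card F) r) := by
  have hord := orderOf_pos (coprime_card (F := F) hrF)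
  have hc0 := cc_pos hord
  obtain ⟨j, hj⟩ := cc_dvd_comm hA hrF hxr hx hW hWx
  have hsum := finrank_fix_add (x := x) (W := W)
  have hle : finrank F (W ⊓ LinearMap.ker (x - 1) : Submodule F V) ≤
      finrank F (LinearMap.ker (x - 1)) := Submodule.finrank_mono inf_le_right
  set c := cc (Fintype.card F) r with hc
  have hlt : finrank F V % c < c := Nat.mod_lt _ hc0
  rw [hmax] at hle
  rw [hj] at hsum
  have hmod : finrank F W % c = finrank F (W ⊓ LinearMap.ker (x - 1) : Submodule F V) := by
    rw [← hsum, Nat.add_mul_mod_self_left, Nat.mod_eq_of_lt (by omega)]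
  refine ⟨by omega, ?_⟩
  rcases Nat.eq_zero_or_pos j with h | h
  · right
    rw [h, mul_zero, add_zero] at hsum
    omega
  · left
    have : c * 1 ≤ c * j := Nat.mul_le_mul_left _ h
    omega

/-- Involutory isometries (up to scalars) in odd characteristic: an invariant plane. -/
theorem exists_plane (hA : B.IsAlt) (hx : ∀ u v, B (x u) (x v) = B u v)
    (h2 : (2 : F) ≠ 0) {z : F} (hz : z = 1 ∨ z = -1) (hxx : ∀ v, x (x v) = z • v)
    {W : Submodule F V} (hW : Nd B W) (hWx : Inv x W) (hW0 : W ≠ ⊥) :
    ∃ E ≤ W, Nd B E ∧ Inv x E ∧ finrank F E = 2 := by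
  obtain ⟨u, huW, hu0⟩ := (Submodule.ne_bot_iff W).1 hW0
  have key : ∀ e ∈ W, ∀ w ∈ W, B e w ≠ 0 → x e ∈ span F {e, w} → x w ∈ span F {e, w} →
      ∃ E ≤ W, Nd B E ∧ Inv x E ∧ finrank F E = 2 := by
    intro e he w hw hne h1 h2
    refine ⟨span F {e, w}, ?_, Nd.pair hA hne, ?_, finrank_pair hA hne⟩
    · rw [span_le]
      rintro y (rfl | rfl)
      · exact he
      · exact hw
    · intro y hy
      have : (span F {e, w}).map x ≤ span F {e, w} := by
        rw [Submodule.map_span_le]
        rintro y (rfl | rfl)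
        · exact h1
        · exact h2
      exact this ⟨y, hy, rfl⟩
  rcases hz with rfl | rfl
  · have hxx' : ∀ v, x (x v) = v := fun v => by rw [hxx, one_smul]
    have he : ∃ (e : V) (l : F), e ∈ W ∧ e ≠ 0 ∧ l * l = 1 ∧ x e = l • e := by
      by_cases h : u + x u = 0
      · exact ⟨u, -1, huW, hu0, by ring, by rw [neg_one_smul]; exact eq_neg_of_add_eq_zero_right h⟩
      · exact ⟨u + x u, 1, W.add_mem huW (hWx u huW), h, by ring, by
          rw [map_add, hxx', one_smul, add_comm]⟩
    obtain ⟨e, l, heW, he0, hl, hxe⟩ := he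
    obtain ⟨w, hwW, hne⟩ := hW e heW he0
    have hB : B e (x w) = l * B e w := by
      have h1 := hx e w
      rw [hxe, LinearMap.map_smul₂, smul_eq_mul] at h1
      rw [← h1, ← mul_assoc, hl, one_mul]
    refine key e heW (w + l • x w) (W.add_mem hwW (W.smul_mem _ (hWx w hwW))) ?_ ?_ ?_
    · rw [map_add, map_smul, hB, smul_eq_mul, ← mul_assoc, hl, one_mul, ← two_mul]
      exact mul_ne_zero h2 hne
    · rw [hxe]
      exact Submodule.smul_mem _ _ (Submodule.subset_span (Or.inl rfl))
    · have : x (w + l • x w) = l • (w + l • x w) := by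
        rw [map_add, map_smul, hxx', smul_add, smul_smul, hl, one_smul, add_comm]
      rw [this]
      exact Submodule.smul_mem _ _ (Submodule.subset_span (Or.inr rfl))
  · have hxx' : ∀ v, x (x v) = -v := fun v => by rw [hxx, neg_one_smul]
    by_cases hex : ∃ v ∈ W, B v (x v) ≠ 0
    · obtain ⟨v, hv, hne⟩ := hex
      refine key v hv (x v) (hWx v hv) hne (Submodule.subset_span (Or.inr rfl)) ?_
      rw [hxx']
      exact Submodule.neg_mem _ (Submodule.subset_span (Or.inl rfl))
    · push Not at hex
      exfalso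
      have h0 : ∀ a ∈ W, ∀ b ∈ W, B a (x b) = 0 := by
        intro a ha b hb
        have h1 := hex (a + b) (W.add_mem ha hb)
        rw [map_add, map_add, LinearMap.add_apply, LinearMap.map_add, LinearMap.map_add, hex a ha,
          hex b hb, zero_add, add_zero] at h1
        have h3 : B b (x a) = B a (x b) := by
          have h4 := hx b (x a)
          rw [hxx', map_neg] at h4
          rw [← h4, swap hA (x b) a, neg_neg]
        rw [h3, ← two_mul] at h1
        exact (mul_eq_zero.1 h1).resolve_left h2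
      obtain ⟨w, hw, hne⟩ := hW u huW hu0
      apply hne
      have := h0 u huW (x w) (hWx w hw)
      rw [hxx', map_neg, neg_eq_zero] at this
      exact this

theorem exists_nd_inv_two (hA : B.IsAlt) (hinj : Function.Injective x)
    (hx : ∀ u v, B (x u) (x v) = B u v)
    (h2 : (2 : F) ≠ 0) {z : F} (hz : z = 1 ∨ z = -1) (hxx : ∀ v, x (x v) = z • v) (m : ℕ) :
    ∀ {W : Submodule F V}, Nd B W → Inv x W → 2 * m ≤ finrank F W →
    ∃ E ≤ W, Nd B E ∧ Inv x E ∧ finrank F E = 2 * m := by
  induction m with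
  | zero => exact fun {W} _ _ _ => ⟨⊥, bot_le, Nd.bot, fun v hv => by
      rw [(Submodule.mem_bot F).1 hv, map_zero]; exact Submodule.zero_mem _, by simp⟩
  | succ m ih =>
    intro W hW hWx hm
    have hW0 : W ≠ ⊥ := by
      rintro rfl
      rw [finrank_bot] at hm
      omega
    obtain ⟨E, hE1, hE2, hE3, hE4⟩ := exists_plane hA hx h2 hz hxx hW hWx hW0
    have hs := split_finrank hA hE2 hE1
    obtain ⟨E', hE'1, hE'2, hE'3, hE'4⟩ := ih (split_nd hA hW hE2 hE1)
      (split_inv hA hinj hx hWx hE3) (by omega)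
    have ho : ∀ u ∈ E, ∀ v ∈ E', B u v = 0 := fun u hu v hv =>
      split_orth hA u hu v (hE'1 hv)
    refine ⟨E ⊔ E', sup_le hE1 (hE'1.trans inf_le_left), Nd.sup hA hE2 hE'2 ho,
      Inv.sup hE3 hE'3, ?_⟩
    have hd := disjoint_of_orth hA hE2 ho
    have := finrank_sup_add_finrank_inf_eq E E'
    rw [hd.eq_bot, finrank_bot] at this
    omega

/-- Involutions in characteristic 2: existence. -/
theorem exists_nd_inv_char_two (hA : B.IsAlt) (hinj : Function.Injective x)
    (hx : ∀ u v, B (x u) (x v) = B u v) (hxx : ∀ v, x (x v) = v) (hV : Nd B ⊤) {m : ℕ}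
    (hm : m ≤ finrank F V) (hme : Even m) (h : finrank F V % 4 = 2 ∨ m % 4 = 0) :
    ∃ E : Submodule F V, Nd B E ∧ Inv x E ∧ finrank F E = m := by
  classical
  obtain ⟨ι, _, E, τ, hE, hE2, hτ, hEx, hs⟩ := exists_atoms hA hinj hx 1
    (fun v => by rw [hxx, one_smul]) _ ⊤ rfl hV (fun v _ => mem_top)
  have htop : (Finset.univ : Finset ι).sup E = ⊤ := by
    rw [← hs, Finset.sup_univ_eq_iSup]
  have hn : finrank F V = 2 * Fintype.card ι := by
    rw [← finrank_top F V, ← htop, hE.finrank_sup hA, Finset.sum_congr rfl (fun i _ => hE2 i),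
      Finset.sum_const, Finset.card_univ, smul_eq_mul, mul_comm]
  obtain ⟨k, hk⟩ := hme
  have hT : ∃ T : Finset ι, T.card = k ∧ ∀ i ∈ T, τ i ∈ T := by
    rcases Nat.even_or_odd' k with ⟨l, hl | hl⟩
    · obtain ⟨T, _, hT, hT'⟩ := Comb.exists_even τ hτ Finset.univ (fun _ _ => Finset.mem_univ _) l
        (by rw [Finset.card_univ]; omega)
      exact ⟨T, by omega, hT'⟩
    · obtain ⟨f, hf⟩ : ∃ f, τ f = f := by
        by_contra hne
        push Not at hne
        have := CountGen.even_card τ hτ hne
        rw [Nat.card_eq_fintype_card] at this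
        omega
      obtain ⟨T, _, hT, hT'⟩ := Comb.exists_odd τ hτ Finset.univ (fun _ _ => Finset.mem_univ _) f
        (Finset.mem_univ _) hf l (by rw [Finset.card_univ]; omega)
      exact ⟨T, by omega, hT'⟩
  obtain ⟨T, hTc, hT⟩ := hT
  refine ⟨T.sup E, hE.nd_sup hA T, ?_, ?_⟩
  · have : T.sup E ≤ (T.sup E).comap x := by
      apply Finset.sup_le
      intro i hi v hv
      rw [Submodule.mem_comap]
      have h1 : x v ∈ E (τ i) := by
        rw [← hEx]
        exact ⟨v, hv, rfl⟩
      exact (Finset.le_sup (f := E) (hT i hi)) h1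
    exact fun v hv => this hv
  · rw [hE.finrank_sup hA, Finset.sum_congr rfl (fun i _ => hE2 i), Finset.sum_const, hTc,
      smul_eq_mul]
    omega

/-- The rank of an alternating form on a subspace is even. -/
theorem even_rank (hA : B.IsAlt) (W R : Submodule F V) (hRW : R ≤ W)
    (hR : ∀ v ∈ W, v ∈ R ↔ ∀ w ∈ W, B v w = 0) : Even (finrank F W - finrank F R) := by
  obtain ⟨T, hT⟩ := Submodule.exists_isCompl (R.comap W.subtype)
  set T' := T.map W.subtype with hT'
  have hfr : finrank F (R.comap W.subtype) = finrank F R :=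
    (Submodule.comapSubtypeEquivOfLe hRW).finrank_eq
  have hft : finrank F T' = finrank F T :=
    (Submodule.equivMapOfInjective _ W.injective_subtype T).symm.finrank_eq
  have hsum := Submodule.finrank_add_eq_of_isCompl hT
  have hnd : Nd B T' := by
    rintro _ ⟨t, ht, rfl⟩ h0
    have ht0 : t ≠ 0 := fun h => h0 (by rw [h, map_zero])
    have hn : (t : V) ∉ R := by
      intro h
      apply ht0
      have := hT.disjoint.le_bot (show t ∈ R.comap W.subtype ⊓ T from ⟨h, ht⟩)
      exact (Submodule.mem_bot F).1 this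
    have hn' : ¬ ∀ w ∈ W, B (t : V) w = 0 := fun h => hn ((hR t t.2).2 h)
    push Not at hn'
    obtain ⟨w, hw, hne⟩ := hn'
    have hw' : (⟨w, hw⟩ : W) ∈ R.comap W.subtype ⊔ T := by rw [hT.sup_eq_top]; exact mem_top
    obtain ⟨r, hr, t', ht', hrt⟩ := Submodule.mem_sup.1 hw'
    refine ⟨t', ⟨t', ht', rfl⟩, ?_⟩
    have hrt' : w = (r : V) + t' := by
      have := congrArg Subtype.val hrt
      exact this.symm
    have h1 : B (t : V) r = 0 := eq_zero_swap hA ((hR r r.2).1 hr t t.2)
    rw [hrt', map_add, h1, zero_add] at hne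
    exact hne
  have := even_finrank hA _ T' rfl hnd
  have h2 : finrank F W - finrank F R = finrank F T' := by omega
  rw [h2]
  exact this

/-- Isometries with all blocks of size two and with `B(v, xv) = 0`. -/
theorem four_dvd (hA : B.IsAlt) (hx : ∀ u v, B (x u) (x v) = B u v)
    (hB : ∀ v, B v (x v) = 0) (hker : LinearMap.ker (x - 1) = LinearMap.range (x - 1))
    {W : Submodule F V} (hW : Nd B W) (hWx : Inv x W) (hinj : Function.Injective x) :
    4 ∣ finrank F W := by
  have hc := hW.isCompl hA
  have hO : Inv x (B.orthogonal W) := by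
    have := split_inv hA hinj hx (W := ⊤) (E := W) (fun v _ => mem_top) hWx
    rwa [top_inf_eq] at this
  have hRW : W ⊓ LinearMap.ker (x - 1) = W.map (x - 1) := by
    apply le_antisymm
    · rintro v ⟨hv, hvk⟩
      rw [hker] at hvk
      obtain ⟨w, rfl⟩ := hvk
      have hw : w ∈ W ⊔ B.orthogonal W := by rw [hc.sup_eq_top]; exact mem_top
      obtain ⟨a, ha, b, hb, rfl⟩ := Submodule.mem_sup.1 hw
      have hb' : (x - 1) b ∈ B.orthogonal W := by
        rw [LinearMap.sub_apply, Module.End.one_apply]
        exact Submodule.sub_mem _ (hO b hb) hb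
      have ha' : (x - 1) a ∈ W := by
        rw [LinearMap.sub_apply, Module.End.one_apply]
        exact Submodule.sub_mem _ (hWx a ha) ha
      have hb'' : (x - 1) b ∈ W := by
        have : (x - 1) b = (x - 1) (a + b) - (x - 1) a := by rw [map_add]; abel
        rw [this]
        exact Submodule.sub_mem _ hv ha'
      have h0 : (x - 1) b = 0 := by
        have := hc.disjoint.le_bot (show (x - 1) b ∈ W ⊓ B.orthogonal W from ⟨hb'', hb'⟩)
        exact (Submodule.mem_bot F).1 this
      rw [map_add, h0, add_zero]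
      exact ⟨a, ha, rfl⟩
    · rintro _ ⟨a, ha, rfl⟩
      refine ⟨?_, ?_⟩
      · rw [LinearMap.sub_apply, Module.End.one_apply]
        exact Submodule.sub_mem _ (hWx a ha) ha
      · rw [hker]
        exact ⟨a, rfl⟩
  have hsum := finrank_fix_add (x := x) (W := W)
  rw [hRW] at hsum
  have hs : (B.compRight (x - 1)).IsAlt := by
    intro v
    show B v ((x - 1) v) = 0
    rw [LinearMap.sub_apply, Module.End.one_apply, map_sub, hB, hA, sub_zero]
  have hsymm : ∀ u v, B u ((x - 1) v) = 0 → B v ((x - 1) u) = 0 := by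
    intro u v h
    exact eq_zero_swap hs (show (B.compRight (x - 1)) u v = 0 from h)
  have := even_rank hs W (W.map (x - 1)) (by rw [← hRW]; exact inf_le_left) (by
    intro v hv
    constructor
    · intro hvm w hw
      rw [← hRW] at hvm
      apply eq_zero_swap hs
      show B w ((x - 1) v) = 0
      rw [LinearMap.mem_ker.1 hvm.2, map_zero]
    · intro h
      rw [← hRW]
      refine ⟨hv, ?_⟩
      show (x - 1) v = 0
      by_contra hne
      have hm : (x - 1) v ∈ W := by
        rw [LinearMap.sub_apply, Module.End.one_apply]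
        exact Submodule.sub_mem _ (hWx v hv) hv
      obtain ⟨w, hw, hwne⟩ := hW _ hm hne
      apply hwne
      apply eq_zero_swap hA
      exact hsymm v w (h w hw))
  obtain ⟨k, hk⟩ := this
  omega

end Cfsg.Agent.H952.NdSub
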