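import Mathlib
import Cfsg.Agent.H952.SympElem
import Cfsg.Agent.H951.Lin

/-!
The shift on functions on `ZMod r` with the alternating form `∑ (u(a+1) v(a) - u(a) v(a+1))`; if the
order of `q` modulo `r` is even there are no totally isotropic invariant subspaces in the functions
of sum zero.
-/

set_option autoImplicit false

namespace Cfsg.Agent.H952.Shift

open Module Submodule Polynomial
open Cfsg.Agent.H952.Alt Cfsg.Agent.H952.Semi Cfsg.Agent.H952.SympSemi

variable (r : ℕ) [Fact r.Prime] (F : Type*) [Field F]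

/-- The shift. -/
def sh : Module.End F (ZMod r → F) where
  toFun u := fun a => u (a + 1)
  map_add' _ _ := rfl
  map_smul' _ _ := rfl

/-- The form. -/
def bf : LinearMap.BilinForm F (ZMod r → F) :=
  LinearMap.mk₂ F (fun u v => ∑ a, (u (a + 1) * v a - u a * v (a + 1)))
    (fun u u' v => by
      rw [← Finset.sum_add_distrib]
      exact Finset.sum_congr rfl fun a _ => by rw [Pi.add_apply, Pi.add_apply]; ring)
    (fun c u v => by
      rw [smul_eq_mul, Finset.mul_sum]
      exact Finset.sum_congr rfl fun a _ => by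
        rw [Pi.smul_apply, Pi.smul_apply, smul_eq_mul, smul_eq_mul]; ring)
    (fun u v v' => by
      rw [← Finset.sum_add_distrib]
      exact Finset.sum_congr rfl fun a _ => by rw [Pi.add_apply, Pi.add_apply]; ring)
    (fun c u v => by
      rw [smul_eq_mul, Finset.mul_sum]
      exact Finset.sum_congr rfl fun a _ => by
        rw [Pi.smul_apply, Pi.smul_apply, smul_eq_mul, smul_eq_mul]; ring)

variable {r F}

theorem sh_apply (u : ZMod r → F) (a : ZMod r) : sh r F u a = u (a + 1) := rfl

theorem bf_apply (u v : ZMod r → F) :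
    bf r F u v = ∑ a, (u (a + 1) * v a - u a * v (a + 1)) := rfl

theorem bf_alt : (bf r F).IsAlt := by
  intro u
  rw [bf_apply]
  exact Finset.sum_eq_zero fun a _ => by ring

theorem bf_isom (u v : ZMod r → F) : bf r F (sh r F u) (sh r F v) = bf r F u v := by
  rw [bf_apply, bf_apply]
  exact Equiv.sum_comp (Equiv.addRight (1 : ZMod r)) (fun a => u (a + 1) * v a - u a * v (a + 1))

theorem sh_pow_apply (n : ℕ) (u : ZMod r → F) (a : ZMod r) : (sh r F ^ n) u a = u (a + n) := by
  induction n generalizing a with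
  | zero => simp
  | succ n ih =>
    rw [pow_succ', Module.End.mul_apply, sh_apply, ih, Nat.cast_add, Nat.cast_one, add_assoc,
      add_comm 1 (n : ZMod r)]

theorem sh_pow : sh r F ^ r = 1 := by
  apply LinearMap.ext
  intro u
  funext a
  rw [sh_pow_apply, ZMod.natCast_self, add_zero, Module.End.one_apply]

/-- The functions of sum zero. -/
def sz (r : ℕ) [Fact r.Prime] (F : Type*) [Field F] : Submodule F (ZMod r → F) :=
  LinearMap.ker (∑ a : ZMod r, LinearMap.proj a : (ZMod r → F) →ₗ[F] F)

theorem mem_sz {u : ZMod r → F} : u ∈ sz r F ↔ ∑ a, u a = 0 := by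
  rw [sz, LinearMap.mem_ker, LinearMap.sum_apply]
  rfl

theorem inv_sz : Inv (sh r F) (sz r F) := by
  intro u hu
  rw [mem_sz] at hu ⊢
  rw [← hu]
  exact Equiv.sum_comp (Equiv.addRight (1 : ZMod r)) u

omit [Field F] in
theorem const_of_shift {u : ZMod r → F} (h : ∀ a, u (a + 1) = u a) (a : ZMod r) : u a = u 0 := by
  have h1 : ∀ n : ℕ, u (n : ZMod r) = u 0 := by
    intro n
    induction n with
    | zero => simp
    | succ n ih => rw [Nat.cast_succ, h, ih]
  rw [← ZMod.natCast_zmod_val a]
  exact h1 _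

theorem sz_fix (hrF : (r : F) ≠ 0) : sz r F ⊓ LinearMap.ker (sh r F - 1) = ⊥ := by
  rw [eq_bot_iff]
  rintro u ⟨h1, h2⟩
  rw [Submodule.mem_bot]
  have h3 : sh r F u = u := by
    have : (sh r F - 1) u = 0 := h2
    rwa [LinearMap.sub_apply, Module.End.one_apply, sub_eq_zero] at this
  have h4 := const_of_shift (fun a => congrFun h3 a)
  have h5 := mem_sz.1 h1
  rw [Finset.sum_congr rfl (fun a _ => h4 a), Finset.sum_const, Finset.card_univ, ZMod.card,
    nsmul_eq_mul] at h5
  funext a
  rw [h4 a, (mul_eq_zero.1 h5).resolve_left hrF, Pi.zero_apply]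

theorem finrank_sz : finrank F (sz r F) = r - 1 := by
  have h := LinearMap.finrank_range_add_finrank_ker
    (∑ a : ZMod r, LinearMap.proj a : (ZMod r → F) →ₗ[F] F)
  have h1 : LinearMap.range (∑ a : ZMod r, LinearMap.proj a : (ZMod r → F) →ₗ[F] F) = ⊤ := by
    rw [LinearMap.range_eq_top]
    intro c
    refine ⟨Pi.single 0 c, ?_⟩
    rw [LinearMap.sum_apply]
    show ∑ a : ZMod r, (Pi.single 0 c : ZMod r → F) a = c
    simp
  rw [h1, finrank_top, Module.finrank_self, Module.finrank_fintype_fun_eq_card, ZMod.card] at h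
  have h2 : 1 + finrank F (sz r F) = r := h
  omega

theorem nd_sz (hr2 : r ≠ 2) (hrF : (r : F) ≠ 0) : Nd (bf r F) (sz r F) := by
  intro u hu hu0
  by_contra hcon
  push Not at hcon
  apply hu0
  have hc : ∀ c : F, bf r F u (fun _ => c) = 0 := by
    intro c
    rw [bf_apply, Finset.sum_sub_distrib, ← Finset.sum_mul, ← Finset.sum_mul,
      mem_sz.1 hu, zero_mul, sub_zero]
    have : ∑ a, u (a + 1) = ∑ a, u a := Equiv.sum_comp (Equiv.addRight (1 : ZMod r)) u
    rw [this, mem_sz.1 hu, zero_mul]
  have hall : ∀ v, bf r F u v = 0 := by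
    intro v
    set c : F := (r : F)⁻¹ * ∑ a, v a with hcdef
    have h1 : v - (fun _ => c) ∈ sz r F := by
      rw [mem_sz]
      simp only [Pi.sub_apply]
      rw [Finset.sum_sub_distrib, Finset.sum_const, Finset.card_univ, ZMod.card, nsmul_eq_mul,
        hcdef, mul_inv_cancel_left₀ hrF, sub_self]
    have h2 := hcon _ h1
    rw [map_sub, hc, sub_zero] at h2
    exact h2
  have h2 : ∀ b, u (b + 1) = u (b - 1) := by
    intro b
    have := hall (Pi.single b 1)
    rw [bf_apply, Finset.sum_sub_distrib] at this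
    have e1 : ∑ a, u (a + 1) * (Pi.single b 1 : ZMod r → F) a = u (b + 1) := by
      rw [Finset.sum_eq_single b]
      · simp
      · intro a _ hab
        rw [Pi.single_eq_of_ne hab, mul_zero]
      · intro h; exact absurd (Finset.mem_univ _) h
    have e2 : ∑ a, u a * (Pi.single b 1 : ZMod r → F) (a + 1) = u (b - 1) := by
      rw [Finset.sum_eq_single (b - 1)]
      · simp
      · intro a _ hab
        rw [Pi.single_eq_of_ne (fun h => hab (by rw [← h, add_sub_cancel_right])), mul_zero]
      · intro h; exact absurd (Finset.mem_univ _) h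
    rw [e1, e2, sub_eq_zero] at this
    exact this
  -- `u` is constant
  have h3 : ∀ a, u (a + 2) = u a := by
    intro a
    have := h2 (a + 1)
    rw [add_sub_cancel_right, add_assoc, one_add_one_eq_two] at this
    exact this
  have h4 : ∀ n : ℕ, ∀ a, u (a + 2 * n) = u a := by
    intro n
    induction n with
    | zero => intro a; simp
    | succ n ih => intro a; rw [Nat.cast_succ, mul_add, mul_one, ← add_assoc, h3, ih]
  have hr := (Fact.out : r.Prime)
  obtain ⟨k, hk⟩ := hr.eq_two_or_odd'.resolve_left hr2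
  have h5 : ∀ a, u (a + 1) = u a := by
    intro a
    have := h4 (k + 1) a
    have e : (2 * ((k + 1 : ℕ) : ZMod r)) = 1 := by
      have e0 : 2 * (k + 1) = r + 1 := by omega
      have e1 := congrArg (Nat.cast : ℕ → ZMod r) e0
      rw [Nat.cast_mul, Nat.cast_add r 1, ZMod.natCast_self, Nat.cast_one, zero_add,
        Nat.cast_ofNat] at e1
      exact e1
    rwa [e] at this
  have h6 : u ∈ sz r F ⊓ LinearMap.ker (sh r F - 1) := by
    refine ⟨hu, ?_⟩
    show (sh r F - 1) u = 0
    rw [LinearMap.sub_apply, Module.End.one_apply, sub_eq_zero]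
    funext a
    exact h5 a
  rw [sz_fix hrF, Submodule.mem_bot] at h6
  exact h6

/-- The function `δ₀` is a cyclic vector. -/
theorem cyclic (v : ZMod r → F) : ∃ h : F[X], aeval (sh r F) h (Pi.single 0 1) = v := by
  refine ⟨∑ a : ZMod r, C (v (-a)) * X ^ a.val, ?_⟩
  rw [map_sum, LinearMap.sum_apply]
  funext b
  rw [Finset.sum_apply, Finset.sum_eq_single (-b)]
  · rw [neg_neg, map_mul, aeval_C, map_pow, aeval_X, Module.End.mul_apply,
      Module.algebraMap_end_apply, Pi.smul_apply, sh_pow_apply, ZMod.natCast_zmod_val,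
      add_neg_cancel, Pi.single_eq_same, smul_eq_mul, mul_one]
  · intro a _ hab
    rw [map_mul, aeval_C, map_pow, aeval_X, Module.End.mul_apply,
      Module.algebraMap_end_apply, Pi.smul_apply, sh_pow_apply, ZMod.natCast_zmod_val,
      Pi.single_eq_of_ne, smul_zero]
    intro h
    exact hab (eq_neg_of_add_eq_zero_right h)
  · intro h; exact absurd (Finset.mem_univ _) h

/-- No totally isotropic invariant subspaces. -/
theorem aniso [Fintype F] (hr2 : r ≠ 2) (hrF : (r : F) ≠ 0)
    (hev : Even (orderOf ((Fintype.card F : ℕ) : ZMod r)))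
    {T : Submodule F (ZMod r → F)} (hT : T ≤ sz r F) (hTx : Inv (sh r F) T)
    (hTI : TI (bf r F) T) : T = ⊥ := by
  have hr := (Fact.out : r.Prime)
  -- invariant complement
  have hss : (sh r F).IsSemisimple := H951.semisimple_of_pow hrF sh_pow
  obtain ⟨T', hT'x, _, hd, hs⟩ := H951.exists_rel_compl (U := ⊤) hss
    (show H951.Inv (sh r F) T from hTx) (fun v _ => mem_top) le_top
  have hc : IsCompl T T' := ⟨disjoint_iff.2 hd, codisjoint_iff.2 hs⟩
  -- the projection
  let e : Module.End F (ZMod r → F) := LinearMap.ofIsCompl hc T.subtype 0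
  have he1 : ∀ v ∈ T, e v = v := fun v hv => LinearMap.ofIsCompl_apply_left hc ⟨v, hv⟩
  have he2 : ∀ v ∈ T', e v = 0 := fun v hv => LinearMap.ofIsCompl_apply_right hc ⟨v, hv⟩
  have hdec : ∀ v, ∃ a ∈ T, ∃ b ∈ T', v = a + b := by
    intro v
    have : v ∈ T ⊔ T' := by rw [hs]; exact mem_top
    obtain ⟨a, ha, b, hb, rfl⟩ := Submodule.mem_sup.1 this
    exact ⟨a, ha, b, hb, rfl⟩
  have heT : ∀ v, e v ∈ T := by
    intro v
    obtain ⟨a, ha, b, hb, rfl⟩ := hdec v
    rw [map_add, he1 a ha, he2 b hb, add_zero]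
    exact ha
  have hcomm : ∀ v, e (sh r F v) = sh r F (e v) := by
    intro v
    obtain ⟨a, ha, b, hb, rfl⟩ := hdec v
    rw [map_add, map_add, map_add, map_add, he1 a ha, he2 b hb, he1 _ (hTx a ha),
      he2 _ (hT'x b hb), map_zero]
  have hcomm' : ∀ (g : F[X]) v, e (aeval (sh r F) g v) = aeval (sh r F) g (e v) := by
    intro g v
    have h1 : Commute e (sh r F) := LinearMap.ext fun v => hcomm v
    have h2 : Commute e (aeval (sh r F) g) := by
      rw [aeval_eq_sum_range]
      exact Commute.sum_right _ _ _ fun k _ => (h1.pow_right k).smul_right _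
    exact LinearMap.congr_fun h2 v
  -- it is a polynomial in the shift
  obtain ⟨h, hh⟩ := cyclic (F := F) (e (Pi.single 0 1))
  have heh : e = aeval (sh r F) h := by
    apply LinearMap.ext
    intro v
    obtain ⟨g, rfl⟩ := cyclic v
    rw [hcomm', ← hh, ← Module.End.mul_apply, ← Module.End.mul_apply, ← map_mul, ← map_mul,
      mul_comm]
  have hee : e * e = e := LinearMap.ext fun v => he1 _ (heT v)
  have hpow : ∀ n, 0 < n → e ^ n = e := by
    intro n hn
    induction n with
    | zero => omega
    | succ n ih =>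
      rcases Nat.eq_zero_or_pos n with h0 | h0
      · rw [h0, zero_add, pow_one]
      · rw [pow_succ, ih h0, hee]
  -- the adjoint
  obtain ⟨m, hm⟩ := hev
  have hord := SympSemi.orderOf_pos (coprime_card (F := F) hrF)
  have hq : ((Fintype.card F : ℕ) : ZMod r) ^ m = -1 := by
    have h1 := pow_orderOf_eq_one ((Fintype.card F : ℕ) : ZMod r)
    rw [hm, pow_add] at h1
    refine (mul_self_eq_one_iff.1 h1).resolve_left fun h2 => ?_
    have h3 := orderOf_le_of_pow_eq_one (show 0 < m by omega) h2
    omega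
  have hinv : sh r F * sh r F ^ (Fintype.card F ^ m) = 1 := by
    rw [← pow_succ']
    apply LinearMap.ext
    intro u
    funext a
    rw [sh_pow_apply, Nat.cast_add, Nat.cast_pow, hq, Nat.cast_one, neg_add_cancel, add_zero,
      Module.End.one_apply]
  have hadj : ∀ u v, bf r F (e u) v = bf r F u (e v) := by
    intro u v
    rw [heh, adj_aeval bf_isom hinv, aeval_pow_card, ← heh, hpow _ (Nat.pow_pos Fintype.card_pos)]
  rw [eq_bot_iff]
  intro t ht
  rw [Submodule.mem_bot]
  by_contra h0
  obtain ⟨v, _, hne⟩ := nd_sz hr2 hrF t (hT ht) h0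
  apply hne
  rw [← he1 t ht, hadj]
  exact hTI t ht _ (heT v)

end Cfsg.Agent.H952.Shift
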