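import Mathlib
import Cfsg.Agent.H951.Cayley
import Cfsg.Agent.H951.JReal
import Cfsg.Agent.H951.UUnip
import Cfsg.Agent.H952.TiExist
import Cfsg.Agent.H952.SympWrap

/-!
Unipotent elements of symplectic groups in odd characteristic and invariant non-degenerate
subspaces of given dimension.
-/

set_option autoImplicit false
set_option linter.unusedSectionVars false

namespace Cfsg.Agent.H952.SympUnip

open Module Submodule
open Cfsg.Agent.H951 (Frm Skew Blk JT Kind)

/-! ### Multisets -/

/-- The block with top `a`. -/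
def fb (a : ℕ) : ℕ × ℕ := (if Even a then 1 else 2, a)

/-- The multiset of Jordan blocks. -/
def ex (κ : Multiset ℕ) : Multiset ℕ := κ.bind fun a => Multiset.replicate (fb a).1 a

theorem ex_zero : ex 0 = 0 := rfl

theorem ex_cons (a : ℕ) (κ : Multiset ℕ) : ex (a ::ₘ κ) = Multiset.replicate (fb a).1 a + ex κ :=
  Multiset.cons_bind _ _ _

theorem ex_add (κ κ' : Multiset ℕ) : ex (κ + κ') = ex κ + ex κ' := Multiset.add_bind _ _ _

theorem mem_ex {κ : Multiset ℕ} {a : ℕ} (h : a ∈ ex κ) : a ∈ κ := by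
  obtain ⟨b, hb, hab⟩ := Multiset.mem_bind.1 h
  rwa [Multiset.eq_of_mem_replicate hab]

theorem count_ex (κ : Multiset ℕ) (a : ℕ) : (ex κ).count a = (fb a).1 * κ.count a := by
  induction κ using Multiset.induction_on with
  | empty => simp [ex_zero]
  | cons b κ ih =>
    rw [ex_cons, Multiset.count_add, ih, Multiset.count_cons, Multiset.count_replicate]
    by_cases h : a = b
    · subst h
      rw [if_pos rfl, if_pos rfl]; ring
    · rw [if_neg h, if_neg (Ne.symm h)]; ring

theorem sum_ex (κ : Multiset ℕ) (j : ℕ) : ((ex κ).map fun x => x - j).sum =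
    ((κ.map fb).map fun x => x.1 * (x.2 - j)).sum := by
  induction κ using Multiset.induction_on with
  | empty => simp [ex_zero]
  | cons b κ ih =>
    rw [ex_cons, Multiset.map_add, Multiset.sum_add, ih, Multiset.map_cons, Multiset.map_cons,
      Multiset.sum_cons, Multiset.map_replicate, Multiset.sum_replicate, smul_eq_mul]
    rfl

theorem sum_ex' (κ : Multiset ℕ) : (ex κ).sum =
    ((κ.map fb).map fun x => x.1 * x.2).sum := by
  have := sum_ex κ 0
  simpa using this

theorem even_count_ex (κ : Multiset ℕ) (a : ℕ) (ha : Odd a) : Even ((ex κ).count a) := by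
  rw [count_ex, fb, if_neg (Nat.not_even_iff_odd.2 ha)]
  exact even_two_mul _

/-- Multisets with odd parts of even multiplicity. -/
theorem exists_ex (μ : Multiset ℕ) (h : ∀ a : ℕ, Odd a → Even (μ.count a)) :
    ∃ κ : Multiset ℕ, ex κ = μ := by
  classical
  let f : ℕ → ℕ := fun a => if Even a then μ.count a else μ.count a / 2
  have hf : ∀ a, a ∉ μ → f a = 0 := by
    intro a ha
    have := Multiset.count_eq_zero_of_notMem ha
    show (if Even a then μ.count a else μ.count a / 2) = 0
    rw [this]; simp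
  let κ : Multiset ℕ := ∑ a ∈ μ.toFinset, Multiset.replicate (f a) a
  have hκ : ∀ a, κ.count a = f a := by
    intro a
    rw [Multiset.count_sum']
    simp only [Multiset.count_replicate]
    rw [Finset.sum_ite_eq']
    split_ifs with h1
    · rfl
    · exact (hf a (fun h2 => h1 (Multiset.mem_toFinset.2 h2))).symm
  refine ⟨κ, ?_⟩
  ext a
  rw [count_ex, hκ, fb]
  show (if Even a then 1 else 2) * (if Even a then μ.count a else μ.count a / 2) = _
  split_ifs with h1
  · rw [one_mul]
  · exact Nat.two_mul_div_two_of_even (h a (Nat.not_even_iff_odd.1 h1))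

theorem le_of_ex_le {κ κ' : Multiset ℕ} (h : ex κ' ≤ ex κ) : κ' ≤ κ := by
  rw [Multiset.le_iff_count] at h ⊢
  intro a
  have h1 := h a
  rw [count_ex, count_ex] at h1
  refine Nat.le_of_mul_le_mul_left h1 ?_
  show 0 < (if Even a then 1 else 2)
  split_ifs <;> omega

/-! ### Blocks -/

variable {F V : Type*} [Field F] [AddCommGroup V] [Module F V] [FiniteDimensional F V]
  {B : V → V → F} {N : Module.End F V}

theorem step_alt (hB : Frm (RingHom.id F) (-1) B) (h2 : (2 : F) ≠ 0)
    (hN : Skew B N) {n : ℕ} (hn : N ^ n = 0) (W : Submodule F V) (hW : H951.Inv N W)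
    (hWn : H951.Nd B W) (h0 : W ≠ ⊥) :
    ∃ U ≤ W, ∃ s a, ((s, a) = fb a ∧ 0 < a ∧ a ≤ n) ∧ 0 < s * a ∧ Blk B N U s a := by
  obtain ⟨k, hkn, ⟨w, hw, hwk⟩, hk⟩ := H951.exists_top_power hn h0
  have hsymm : ∀ u v, B v ((N ^ k) u) = (-1) ^ (k + 1) * B u ((N ^ k) v) := by
    intro u v
    have h1 : B v ((N ^ k) u) = -1 * B ((N ^ k) u) v := hB.herm _ _
    rw [h1, hN.pow hB, pow_succ]; ring
  obtain ⟨v, hv, hwv⟩ := hWn _ (hW.pow k w hw) hwk
  have hwv' : B v ((N ^ k) w) ≠ 0 := fun h => hwv (hB.eq_zero_comm.1 h)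
  rcases Nat.even_or_odd k with hk2 | hk2
  · -- `k` even: two generators
    have hodd : ¬ Even (k + 1) := by rw [Nat.even_add_one, not_not]; exact hk2
    have hs1 : ∀ u v, B v ((N ^ k) u) = - B u ((N ^ k) v) := by
      intro u v
      rw [hsymm, (hk2.add_one).neg_one_pow, neg_one_mul]
    have hs0 : ∀ u, B u ((N ^ k) u) = 0 := by
      intro u
      have h3 := hs1 u u
      have h4 : 2 * B u ((N ^ k) u) = 0 := by linear_combination h3
      exact (mul_eq_zero.1 h4).resolve_left h2
    refine ⟨_, ?_, 2, k + 1, ⟨?_, by omega, by omega⟩, by omega,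
      H951.blk_of_gens hB hN (s := 2) (k := k) ![v, w] ?_ ?_⟩
    · rw [Submodule.span_le]
      rintro _ ⟨⟨i, b⟩, rfl⟩
      fin_cases b
      · exact hW.pow _ v hv
      · exact hW.pow _ w hw
    · rw [fb, if_neg hodd]
    · intro b
      fin_cases b
      · exact hk v hv
      · exact hk w hw
    · intro c hc
      have h3 := hc 0
      have h4 := hc 1
      rw [Fin.sum_univ_two] at h3 h4
      simp only [Matrix.cons_val_zero, Matrix.cons_val_one] at h3 h4
      rw [hs0, mul_zero, zero_add, hs1] at h3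
      rw [hs0, mul_zero, add_zero] at h4
      have h5 := (mul_eq_zero.1 h4).resolve_right hwv'
      have h6 := (mul_eq_zero.1 h3).resolve_right (neg_ne_zero.2 hwv')
      funext b
      fin_cases b
      · exact h5
      · exact h6
  · -- `k` odd: one generator
    have hev : Even (k + 1) := hk2.add_one
    have hs1 : ∀ u v, B v ((N ^ k) u) = B u ((N ^ k) v) := by
      intro u v
      rw [hsymm, hev.neg_one_pow, one_mul]
    obtain ⟨u, hu, huu⟩ : ∃ u ∈ W, B u ((N ^ k) u) ≠ 0 := by
      by_contra hno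
      push Not at hno
      have h3 := hno (v + w) (W.add_mem hv hw)
      rw [map_add, hB.add_left, hB.add_right, hB.add_right, hno v hv, hno w hw, hs1 v w,
        zero_add, add_zero] at h3
      have h4 : 2 * B v ((N ^ k) w) = 0 := by linear_combination h3
      exact hwv' ((mul_eq_zero.1 h4).resolve_left h2)
    refine ⟨_, ?_, 1, k + 1, ⟨?_, by omega, by omega⟩, by omega,
      H951.blk_of_gens hB hN (s := 1) (k := k) (fun _ => u) (fun _ => hk u hu) ?_⟩
    · rw [Submodule.span_le]
      rintro _ ⟨x, rfl⟩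
      exact hW.pow _ u hu
    · rw [fb, if_pos hev]
    · intro c hc
      have h3 := hc 0
      rw [Fin.sum_univ_one] at h3
      ext b
      rw [Subsingleton.elim b 0]
      exact (mul_eq_zero.1 h3).resolve_right huu

theorem real_alt [Finite F] (hB : Frm (RingHom.id F) (-1) B) (hK : Kind (RingHom.id F) (-1) B)
    (h2 : (2 : F) ≠ 0) {n : ℕ} (s a : ℕ) (hsa : (s, a) = fb a ∧ 0 < a ∧ a ≤ n)
    (U : Submodule F V) (hU : H951.Nd B U) (hUf : finrank F U = s * a) :
    ∃ N : Module.End F V, Skew B N ∧ (∀ v ∈ hB.perp U, N v = 0) ∧ (∀ v, N v ∈ U) ∧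
      N ^ n = 0 ∧ Blk B N U s a := by
  obtain ⟨hf, ha, han⟩ := hsa
  obtain ⟨k, rfl⟩ : ∃ k, a = k + 1 := ⟨a - 1, by omega⟩
  have hs : s = if Even (k + 1) then 1 else 2 := congrArg Prod.fst hf
  have fin : ∀ {s : ℕ} (G : Fin s → Fin s → F),
      (∀ b b', G b' b = ((-1) ^ k * -1) * (RingHom.id F) (G b b')) →
      (∀ c : Fin s → F, (∀ b, ∑ b', c b' * G b' b = 0) → c = 0) → finrank F U = s * (k + 1) →
      ∃ N : Module.End F V, Skew B N ∧ (∀ v ∈ hB.perp U, N v = 0) ∧ (∀ v, N v ∈ U) ∧
      N ^ n = 0 ∧ Blk B N U s (k + 1) := by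
    intro s G h3 h4 h5
    obtain ⟨N, h6, h7, h8, h9, h10⟩ := H951.exists_block_real hB hK (fun _ => h2) G h3 h4 hU h5
    refine ⟨N, h6, h7, h8, ?_, h10⟩
    obtain ⟨t, ht⟩ : ∃ t, n = t + (k + 1) := ⟨n - (k + 1), by omega⟩
    rw [ht, pow_add, h9, mul_zero]
  by_cases hev : Even (k + 1)
  · rw [if_pos hev] at hs
    subst hs
    have hk : Odd k := by
      rw [Nat.even_add_one] at hev
      exact Nat.not_even_iff_odd.1 hev
    refine fin (fun _ _ => 1) ?_ ?_ hUf
    · intro b b'
      rw [hk.neg_one_pow]; simp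
    · intro c hc
      have h3 := hc 0
      rw [Fin.sum_univ_one, mul_one] at h3
      ext b
      rw [Subsingleton.elim b 0]
      exact h3
  · rw [if_neg hev] at hs
    subst hs
    have hk : Even k := by
      rw [Nat.even_add_one, not_not] at hev
      exact hev
    refine fin (fun b b' => if b = b' then 0 else if b = 0 then 1 else -1) ?_ ?_ hUf
    · intro b b'
      rw [hk.neg_one_pow]
      fin_cases b <;> fin_cases b' <;> simp
    · intro c hc
      have h3 := hc 0
      have h4 := hc 1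
      rw [Fin.sum_univ_two] at h3 h4
      simp at h3 h4
      funext b
      fin_cases b
      · exact h4
      · exact h3

/-! ### The statement -/

open Cfsg.Agent.ClassicalGeometry.SympBasic

theorem main {F : Type*} [Field F] [Fintype F] {p : ℕ} [Fact p.Prime] [CharP F p] (hp : 2 < p)
    {d m : ℕ} (hme : Even m) (hmd : m ≤ 2 * d) :
    (∀ x : Module.End F (Fin d ⊕ Fin d → F),
      (∀ u v, sympBilin d F (x u) (x v) = sympBilin d F u v) →
      x ^ p = 1 → x ≠ 1 → ∃ W : Submodule F (Fin d ⊕ Fin d → F),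
        (finrank F W = m ∧ Alt.Nd (sympBilin d F) W) ∧ Alt.Inv x W) ↔
    (∀ μ : Multiset ℕ, (∀ a ∈ μ, 0 < a ∧ a ≤ p) →
      (∀ a : ℕ, Odd a → Even (μ.count a)) → μ.sum = 2 * d →
        ∃ ν : Multiset ℕ, ν ≤ μ ∧ ν.sum = m ∧ ∀ a : ℕ, Odd a → Even (ν.count a)) := by
  have hpP : p.Prime := Fact.out
  have hA : (sympBilin d F).IsAlt := sympBilin_isAlt
  have hV : finrank F (Fin d ⊕ Fin d → F) = 2 * d := H952.Wrap.finrank_eq
  have hB := TiSub.frm (F := F) hA
  have hK := TiSub.kind (F := F) hA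
  have hp2 : p ≠ 2 := by omega
  have h2 : (2 : F) ≠ 0 := by
    intro h0
    have h1 : ((2 : ℕ) : F) = 0 := by exact_mod_cast h0
    have h3 : p ∣ 2 := (CharP.cast_eq_zero_iff F p 2).1 h1
    have := Nat.le_of_dvd (by omega) h3
    omega
  have hnd : H951.Nd (fun u v => sympBilin d F u v) (⊤ : Submodule F (Fin d ⊕ Fin d → F)) :=
    Alt.nd_top
  have hexm : ∀ (κ : Multiset ℕ), (∀ a ∈ ex κ, 0 < a ∧ a ≤ p) → ∀ a ∈ κ, 0 < a ∧ a ≤ p := by
    intro κ h a ha
    apply h
    rw [← Multiset.count_pos, count_ex]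
    apply Nat.mul_pos
    · show 0 < (if Even a then 1 else 2)
      split_ifs <;> omega
    · exact Multiset.count_pos.2 ha
  have hmapfb : ∀ μ' : Multiset (ℕ × ℕ), (∀ x ∈ μ', (x.1, x.2) = fb x.2 ∧ 0 < x.2 ∧ x.2 ≤ p) →
      μ' = (μ'.map Prod.snd).map fb := by
    intro μ' h
    rw [Multiset.map_map]
    conv_lhs => rw [← Multiset.map_id μ']
    apply Multiset.map_congr rfl
    intro x hx
    exact (h x hx).1
  constructor
  · intro H μ hμ hμe hsum
    obtain ⟨κ, rfl⟩ := exists_ex μ hμe
    have hκ := hexm κ hμ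
    obtain ⟨N, h1, -, -, h4, h5⟩ := H951.exists_real hB hK hpP.ne_zero
      (P := fun s a => (s, a) = fb a ∧ 0 < a ∧ a ≤ p)
      (fun s a hsa U hU hUf => real_alt hB hK h2 s a hsa U hU hUf) (fun _ s a hsa => by
        have h := congrArg Prod.fst hsa.1
        change s = (if Even a then 1 else 2) at h
        rw [h]
        split_ifs with h3
        · rw [one_mul]; exact h3
        · exact even_two_mul a) (κ.map fb) (by
        intro x hx
        obtain ⟨a, ha, rfl⟩ := Multiset.mem_map.1 hx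
        exact ⟨rfl, hκ a ha⟩) ⊤ hnd (by rw [finrank_top, hV, ← sum_ex', hsum])
    by_cases hN0 : N = 0
    · -- all parts are 1
      have h6 := h5.rank hB 1
      rw [hN0, pow_one, Submodule.map_zero, finrank_bot, ← sum_ex] at h6
      have h7 : ∀ a ∈ ex κ, a = 1 := by
        intro a ha
        have h8 : a - 1 ∈ (ex κ).map fun x => x - 1 := Multiset.mem_map.2 ⟨a, ha, rfl⟩
        have h9 := Multiset.sum_eq_zero_iff.1 h6.symm _ h8
        have := (hμ a ha).1
        omega
      have h8 : ex κ = Multiset.replicate (2 * d) 1 := by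
        rw [Multiset.eq_replicate]
        refine ⟨?_, h7⟩
        have h9 : ex κ = Multiset.replicate (Multiset.card (ex κ)) 1 :=
          Multiset.eq_replicate_card.2 h7
        rw [h9, Multiset.sum_replicate] at hsum
        simpa using hsum
      refine ⟨Multiset.replicate m 1, ?_, by simp, ?_⟩
      · rw [h8]
        exact (Multiset.replicate_le_replicate 1).2 hmd
      · intro a _
        rw [Multiset.count_replicate]
        split_ifs
        · exact hme
        · exact Even.zero
    obtain ⟨y, hy, hyp, hyW, hy1⟩ := H951.exists_isom_of_skew_odd (p := p) hp2 hB h1 h4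
    obtain ⟨W, ⟨hWm, hWn⟩, hW⟩ := H y hy hyp (fun h => hN0 (hy1 h))
    have hWN : H951.Inv N W := (hyW W).1 hW
    have hperp : ∀ W, H951.Inv N W → H951.Inv N (hB.perp W) := fun W hW => h1.inv_perp hB hW
    obtain ⟨ν, hν, hν1⟩ := H951.exists_jt hB hperp (step_alt hB h2 h1 h4) W hWN hWn
    have hWp := hB.nd_perp_inf hnd hWn le_top
    rw [inf_top_eq] at hWp
    obtain ⟨ν', hν', hν'1⟩ := H951.exists_jt hB hperp (step_alt hB h2 h1 h4) (hB.perp W)
      (hperp _ hWN) hWp
    have hadd := hν.add hB hν' fun u hu w hw => hB.eq_zero_comm.1 (hw u hu)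
    rw [(hB.isCompl_perp hWn).sup_eq_top] at hadd
    have e1 := hmapfb ν hν1
    have e2 := hmapfb ν' hν'1
    have heq : ex κ = ex (ν.map Prod.snd) + ex (ν'.map Prod.snd) := by
      rw [← ex_add]
      apply H951.multiset_eq_of_sums (fun a ha => (hμ a ha).1)
      · intro a ha
        have h6 := mem_ex ha
        rcases Multiset.mem_add.1 h6 with h7 | h7
        · obtain ⟨x, hx, rfl⟩ := Multiset.mem_map.1 h7
          exact (hν1 x hx).2.1
        · obtain ⟨x, hx, rfl⟩ := Multiset.mem_map.1 h7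
          exact (hν'1 x hx).2.1
      · intro j
        rw [sum_ex, sum_ex, ← h5.rank hB j, hadd.rank hB j, Multiset.map_add fb, ← e1, ← e2]
    refine ⟨ex (ν.map Prod.snd), ?_, ?_, fun a ha => even_count_ex _ a ha⟩
    · rw [heq]
      exact Multiset.le_add_right _ _
    · rw [sum_ex', ← e1, ← hν.finrank_eq hB, hWm]
  · intro H x hx hxp _
    obtain ⟨N, h1, h4, hyW⟩ := H951.exists_skew_of_isom_odd (p := p) hp2 hB hx hxp
    obtain ⟨μ', hμ', hμ1⟩ := H951.exists_jt hB (fun W hW => h1.inv_perp hB hW)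
      (step_alt hB h2 h1 h4) ⊤ (fun _ _ => trivial) hnd
    have e1 := hmapfb μ' hμ1
    have hd := hμ'.finrank_eq hB
    rw [finrank_top, hV, e1, ← sum_ex'] at hd
    obtain ⟨ν, hν, hνm, hνe⟩ := H (ex (μ'.map Prod.snd)) (by
      intro a ha
      obtain ⟨x, hx, rfl⟩ := Multiset.mem_map.1 (mem_ex ha)
      exact (hμ1 x hx).2) (fun a ha => even_count_ex _ a ha) hd.symm
    obtain ⟨κ', rfl⟩ := exists_ex ν hνe
    have hle : κ'.map fb ≤ μ' := by
      rw [e1]
      exact Multiset.map_le_map (le_of_ex_le hν)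
    obtain ⟨W, -, hW⟩ := hμ'.sub hle
    refine ⟨W, ⟨?_, hW.nd hB⟩, (hyW W).2 hW.inv⟩
    rw [hW.finrank_eq hB, ← sum_ex', hνm]

end Cfsg.Agent.H952.SympUnip
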