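import Mathlib
import Cfsg.Agent.H952.NdCount
import Cfsg.Agent.ClassicalGeometry.SympStab

/-!
The number of totally isotropic subspaces of given dimension of a symplectic space.
-/

set_option autoImplicit false
set_option linter.unusedSectionVars false

namespace Cfsg.Agent.H952.TiSub

open Module Submodule Cfsg
open Cfsg.Agent.H952.Alt Cfsg.Agent.H952.Semi Cfsg.Agent.H952.SympSemi
open Cfsg.Agent.H952.SympTrans
open Cfsg.Agent.ClassicalGeometry.SympBasic Cfsg.Agent.ClassicalGeometry.SympStab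

variable {F : Type*} [Field F] [Fintype F] {d : ℕ}

theorem col_eq (A : ↥(Matrix.symplecticGroup (Fin d) F)) (a : Fin d ⊕ Fin d) :
    (A : Matrix (Fin d ⊕ Fin d) (Fin d ⊕ Fin d) F).col a =
      Matrix.toLin' (A : Matrix (Fin d ⊕ Fin d) (Fin d ⊕ Fin d) F) (Pi.single a 1) := by
  rw [Matrix.toLin'_apply, Matrix.mulVec_single_one]

theorem ti_col (A : ↥(Matrix.symplecticGroup (Fin d) F)) (i j : Fin d) :
    sympBilin d F ((A : Matrix (Fin d ⊕ Fin d) (Fin d ⊕ Fin d) F).col (Sum.inl i))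
      ((A : Matrix (Fin d ⊕ Fin d) (Fin d ⊕ Fin d) F).col (Sum.inl j)) = 0 := by
  rw [col_eq, col_eq, toLin_isometry, sympBilin_apply, sympForm_single_inl_left]
  simp

theorem card_ti {k : ℕ} (hk : k ≤ d) :
    Nat.card (Matrix.symplecticGroup (Fin d) F) =
      Nat.card {W : Submodule F (Fin d ⊕ Fin d → F) // finrank F W = k ∧ TI (sympBilin d F) W} *
      (Fintype.card F ^ (k * (k + 1) / 2 + 2 * k * (d - k)) *
        (Fintype.card F ^ ((d - k) ^ 2) *
          ∏ i ∈ Finset.range (d - k), (Fintype.card F ^ (2 * (i + 1)) - 1)) *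
        ∏ i : Fin k, (Fintype.card F ^ k - Fintype.card F ^ (i : ℕ))) := by
  classical
  have hli : ∀ A : ↥(Matrix.symplecticGroup (Fin d) F), LinearIndependent F (fun i : Fin k =>
      (A : Matrix (Fin d ⊕ Fin d) (Fin d ⊕ Fin d) F).col (Sum.inl (Fin.castLE hk i))) :=
    fun A => (linearIndependent_col A).comp (fun i : Fin k => Sum.inl (Fin.castLE hk i))
      (Sum.inl_injective.comp (Fin.castLE_injective hk))
  have hsp : ∀ A : ↥(Matrix.symplecticGroup (Fin d) F),
      finrank F (Submodule.span F (Set.range fun i : Fin k =>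
        (A : Matrix (Fin d ⊕ Fin d) (Fin d ⊕ Fin d) F).col (Sum.inl (Fin.castLE hk i)))) = k ∧
      TI (sympBilin d F) (Submodule.span F (Set.range fun i : Fin k =>
        (A : Matrix (Fin d ⊕ Fin d) (Fin d ⊕ Fin d) F).col (Sum.inl (Fin.castLE hk i)))) := by
    intro A
    refine ⟨by rw [finrank_span_eq_card (hli A), Fintype.card_fin], ?_⟩
    intro u hu v hv
    refine Submodule.span_induction ?_ ?_ ?_ ?_ hu
    · rintro _ ⟨i, rfl⟩
      refine Submodule.span_induction ?_ ?_ ?_ ?_ hv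
      · rintro _ ⟨j, rfl⟩
        exact ti_col A _ _
      · rw [map_zero]
      · intro a b _ _ ha hb
        rw [map_add, ha, hb, add_zero]
      · intro c a _ ha
        rw [map_smul, ha, smul_zero]
    · rw [map_zero, LinearMap.zero_apply]
    · intro a b _ _ ha hb
      rw [map_add, LinearMap.add_apply, ha, hb, add_zero]
    · intro c a _ ha
      rw [map_smul, LinearMap.smul_apply, ha, smul_zero]
  have hmem : ∀ A : ↥(Matrix.symplecticGroup (Fin d) F), ∀ i : Fin d, (i : ℕ) < k →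
      (A : Matrix (Fin d ⊕ Fin d) (Fin d ⊕ Fin d) F).col (Sum.inl i) ∈
        Submodule.span F (Set.range fun i : Fin k =>
          (A : Matrix (Fin d ⊕ Fin d) (Fin d ⊕ Fin d) F).col (Sum.inl (Fin.castLE hk i))) := by
    intro A i hi
    exact Submodule.subset_span ⟨⟨i, hi⟩, rfl⟩
  have : Finite (Submodule F (Fin d ⊕ Fin d → F)) := by
    have : Finite (Fin d ⊕ Fin d → F) := inferInstance
    exact Finite.of_injective (fun W => (W : Set (Fin d ⊕ Fin d → F))) SetLike.coe_injective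
  letI : Fintype {W : Submodule F (Fin d ⊕ Fin d → F) //
      finrank F W = k ∧ TI (sympBilin d F) W} := Fintype.ofFinite _
  let E : ↥(Matrix.symplecticGroup (Fin d) F) ≃
      (Σ W : {W : Submodule F (Fin d ⊕ Fin d → F) // finrank F W = k ∧ TI (sympBilin d F) W},
        {A : ↥(Matrix.symplecticGroup (Fin d) F) // ∀ i : Fin d, (i : ℕ) < k →
          (A : Matrix (Fin d ⊕ Fin d) (Fin d ⊕ Fin d) F).col (Sum.inl i) ∈ W.1}) :=
    { toFun := fun A => ⟨⟨_, hsp A⟩, ⟨A, hmem A⟩⟩
      invFun := fun x => x.2.1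
      left_inv := fun A => rfl
      right_inv := by
        rintro ⟨⟨W, hW⟩, ⟨A, hA⟩⟩
        have h1 := span_col_eq hk A hW.1 hA
        subst h1
        rfl }
  rw [Nat.card_congr E, Nat.card_sigma, Finset.sum_congr rfl (g := fun _ =>
    (Fintype.card F ^ (k * (k + 1) / 2 + 2 * k * (d - k)) *
        (Fintype.card F ^ ((d - k) ^ 2) *
          ∏ i ∈ Finset.range (d - k), (Fintype.card F ^ (2 * (i + 1)) - 1)) *
        ∏ i : Fin k, (Fintype.card F ^ k - Fintype.card F ^ (i : ℕ))))]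
  · rw [Finset.sum_const, Finset.card_univ, smul_eq_mul, Nat.card_eq_fintype_card]
  · rintro ⟨W, hW⟩ _
    rw [← prod_formula _ d k hk, ← card_cols_mem hk W hW.1 hW.2]

theorem card_symp (n : ℕ) : Nat.card (Matrix.symplecticGroup (Fin n) F) =
    Fintype.card F ^ (n ^ 2) * ∏ j ∈ Finset.range n, (Fintype.card F ^ (2 * (j + 1)) - 1) :=
  Cfsg.Agent.S0245.result (F := F) rfl n

/-- If `r` divides the number of totally isotropic subspaces of dimension `k` then
`2k > 2d mod c`. -/
theorem lt_of_dvd_card {k : ℕ} (hk : k ≤ d) {r : ℕ} [Fact r.Prime]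
    (hrF : (r : F) ≠ 0) (h : r ∣ Nat.card {W : Submodule F (Fin d ⊕ Fin d → F) //
      finrank F W = k ∧ TI (sympBilin d F) W}) :
    (2 * d) % cc (Fintype.card F) r < 2 * k := by
  refine NdSub.lt_of_dvd_mul hk hrF ?_ h
  rw [card_ti hk, ← card_symp]
  apply Nat.mul_dvd_mul_left
  exact Dvd.dvd.mul_right (Dvd.dvd.mul_left dvd_rfl _) _

/-- The number of totally isotropic subspaces is prime to the characteristic. -/
theorem not_dvd_card {k : ℕ} (hk : k ≤ d) {p : ℕ} [Fact p.Prime] [CharP F p] :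
    ¬ p ∣ Nat.card {W : Submodule F (Fin d ⊕ Fin d → F) //
      finrank F W = k ∧ TI (sympBilin d F) W} := by
  intro h
  have hp := (Fact.out : p.Prime)
  set N := Nat.card {W : Submodule F (Fin d ⊕ Fin d → F) //
      finrank F W = k ∧ TI (sympBilin d F) W} with hN
  have hq1 : 1 < Fintype.card F := Fintype.one_lt_card
  have hpq : p ∣ Fintype.card F := by
    obtain ⟨n, _, hn⟩ := FiniteField.card F p
    rw [hn]
    exact dvd_pow_self p n.pos.ne'
  have h1 := card_ti (F := F) (d := d) hk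
  rw [card_symp, ← hN] at h1
  have h2 : ∏ i : Fin k, (Fintype.card F ^ k - Fintype.card F ^ (i : ℕ)) =
      Fintype.card F ^ (k * (k - 1) / 2) * ∏ i : Fin k, (Fintype.card F ^ (k - i) - 1) := by
    rw [← Finset.sum_range_id, ← Finset.prod_pow_eq_pow_sum, ← Fin.prod_univ_eq_prod_range,
      ← Finset.prod_mul_distrib]
    apply Finset.prod_congr rfl
    intro i _
    rw [Nat.mul_sub, mul_one, ← pow_add, Nat.add_sub_cancel' i.2.le]
  have hexp : k * (k + 1) / 2 + 2 * k * (d - k) + (d - k) ^ 2 + k * (k - 1) / 2 = d ^ 2 := by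
    obtain ⟨l, rfl⟩ := Nat.exists_eq_add_of_le hk
    have e1 : k * (k + 1) / 2 + k * (k - 1) / 2 = k ^ 2 := by
      rcases k with _ | j
      · rfl
      · obtain ⟨a, ha⟩ := Nat.even_mul_succ_self (j + 1)
        obtain ⟨b, hb⟩ := Nat.even_mul_succ_self j
        have h3 : (j + 1) * (j + 1 - 1) = b + b := by
          rw [← hb, Nat.add_sub_cancel, mul_comm]
        have h4 : a + a + (b + b) = 2 * (j + 1) ^ 2 := by
          rw [← ha, ← hb]; ring
        rw [show (j + 1) * (j + 1 + 1) = a + a from ha, h3]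
        omega
    rw [Nat.add_sub_cancel_left]
    have : (k + l) ^ 2 = k ^ 2 + 2 * k * l + l ^ 2 := by ring
    omega
  rw [h2] at h1
  have h3 : ∏ j ∈ Finset.range d, (Fintype.card F ^ (2 * (j + 1)) - 1) =
      N * ((∏ i ∈ Finset.range (d - k), (Fintype.card F ^ (2 * (i + 1)) - 1)) *
        ∏ i : Fin k, (Fintype.card F ^ (k - i) - 1)) := by
    apply Nat.eq_of_mul_eq_mul_left (Nat.pow_pos (show 0 < Fintype.card F by omega) (n := d ^ 2))
    rw [h1, ← hexp, pow_add, pow_add, pow_add]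
    ring
  have h4 : p ∣ ∏ j ∈ Finset.range d, (Fintype.card F ^ (2 * (j + 1)) - 1) := by
    rw [h3]
    exact Dvd.dvd.mul_right h _
  obtain ⟨j, _, hj⟩ := (Prime.dvd_finsetProd_iff hp.prime _).1 h4
  have h5 : p ∣ Fintype.card F ^ (2 * (j + 1)) := hpq.trans (dvd_pow_self _ (by omega))
  have h6 : 0 < Fintype.card F ^ (2 * (j + 1)) := Nat.pow_pos (by omega)
  have h7 : p ∣ 1 := by
    have := (Nat.dvd_sub h5 hj)
    rwa [Nat.sub_sub_self h6] at this
  exact hp.one_lt.ne' (Nat.dvd_one.1 h7)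

end Cfsg.Agent.H952.TiSub
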