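import Mathlib
import Cfsg.Agent.H952.NdCount
import Cfsg.Agent.H952.Shift
import Cfsg.Agent.H951.Elem
import Cfsg.Agent.H952.JordanReal

/-!
Isometries of odd prime order of symplectic spaces with small totally isotropic invariant
subspaces.
-/

set_option autoImplicit false
set_option linter.unusedSectionVars false

namespace Cfsg.Agent.H952.TiSub

open Module Submodule
open Cfsg.Agent.H952.Alt Cfsg.Agent.H952.Semi Cfsg.Agent.H952.SympSemi
open Cfsg.Agent.H952.NdSub

variable {F V V' : Type*} [Field F] [AddCommGroup V] [Module F V] [FiniteDimensional F V]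
  [AddCommGroup V'] [Module F V'] [FiniteDimensional F V']
  {B : LinearMap.BilinForm F V} {B' : LinearMap.BilinForm F V'}

/-- Isometries between non-degenerate subspaces of the same dimension. -/
theorem exists_iso' (hA : B.IsAlt) (hA' : B'.IsAlt) {W : Submodule F V} {W' : Submodule F V'}
    (hW : Nd B W) (hW' : Nd B' W') (h : finrank F W = finrank F W') :
    ∃ φ : W ≃ₗ[F] W', ∀ u v : W, B' (φ u : V') (φ v : V') = B (u : V) v := by
  obtain ⟨k, hk⟩ := even_finrank hA _ W rfl hW
  obtain ⟨e, he⟩ := ClassicalGeometry.SympIso.exists_linearEquiv_sympForm (k := k) (B.restrict W)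
    (fun v => hA (v : V)) (nd_restrict hW) (by omega)
  obtain ⟨e', he'⟩ := ClassicalGeometry.SympIso.exists_linearEquiv_sympForm (k := k)
    (B'.restrict W') (fun v => hA' (v : V')) (nd_restrict hW') (by omega)
  refine ⟨e.symm.trans e', fun u v => ?_⟩
  have h1 := he (e.symm u) (e.symm v)
  have h2 := he' (e.symm u) (e.symm v)
  rw [e.apply_symm_apply, e.apply_symm_apply] at h1
  exact h2.trans h1.symm

/-- Transport of isometries. -/
theorem exists_transport (hA : B.IsAlt) (hA' : B'.IsAlt) {E : Submodule F V'} {W : Submodule F V}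
    (hE : Nd B' E) (hW : Nd B W) (h : finrank F E = finrank F W) {r : ℕ}
    {y : Module.End F V'} (hy : ∀ u v, B' (y u) (y v) = B' u v) (hyr : y ^ r = 1)
    (hyE : Inv y E) (hfix : E ⊓ LinearMap.ker (y - 1) = ⊥) :
    ∃ (x : Module.End F V) (φ : E ≃ₗ[F] W), FreeOn B x r W ∧
      (∀ e : E, x (φ e : V) = (φ ⟨y e, hyE e e.2⟩ : V)) ∧
      ∀ u v : E, B (φ u : V) (φ v : V) = B' (u : V') v := by
  obtain ⟨φ, hφ⟩ := exists_iso' hA' hA hE hW h
  let yE : Module.End F E := y.restrict hyE
  have hyE' : ∀ e : E, ((yE e : E) : V') = y e := fun e => rfl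
  obtain ⟨x, hx, hxl, hxr⟩ := glue hA (W' := W) hW
    (W.subtype.comp ((φ : E →ₗ[F] W).comp (yE.comp (φ.symm : W →ₗ[F] E))))
    (fun w => (φ _).2) (fun u v => by
      show B (φ (yE (φ.symm u)) : V) (φ (yE (φ.symm v)) : V) = B (u : V) v
      rw [hφ, hyE', hyE', hy, ← hφ, φ.apply_symm_apply, φ.apply_symm_apply])
    (B.orthogonal W).subtype (fun z => z.2) (fun _ _ => rfl)
  have hxW : ∀ w : W, x (w : V) = (φ (yE (φ.symm w)) : V) := hxl
  have hxO : ∀ v ∈ B.orthogonal W, x v = v := fun v hv => hxr ⟨v, hv⟩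
  have hcompl := hW.isCompl hA
  have hdec : ∀ v : V, ∃ w : W, ∃ z ∈ B.orthogonal W, v = (w : V) + z := by
    intro v
    have : v ∈ W ⊔ B.orthogonal W := by rw [hcompl.sup_eq_top]; exact Submodule.mem_top
    obtain ⟨a, ha, b, hb, rfl⟩ := Submodule.mem_sup.1 this
    exact ⟨⟨a, ha⟩, b, hb, rfl⟩
  have hpowW : ∀ (n : ℕ) (w : W), (x ^ n) (w : V) = (φ ((yE ^ n) (φ.symm w)) : V) := by
    intro n
    induction n with
    | zero => intro w; simp
    | succ n ih =>
      intro w
      rw [pow_succ', Module.End.mul_apply, ih, hxW, φ.symm_apply_apply, pow_succ',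
        Module.End.mul_apply]
  have hpowO : ∀ (n : ℕ), ∀ v ∈ B.orthogonal W, (x ^ n) v = v := by
    intro n
    induction n with
    | zero => intro v _; simp
    | succ n ih =>
      intro v hv
      rw [pow_succ, Module.End.mul_apply, hxO v hv, ih v hv]
  have hyEr : yE ^ r = 1 := by
    apply LinearMap.ext
    intro e
    apply Subtype.ext
    have : ∀ (n : ℕ) (e : E), (((yE ^ n) e : E) : V') = (y ^ n) e := by
      intro n
      induction n with
      | zero => intro e; simp
      | succ n ih => intro e; rw [pow_succ', Module.End.mul_apply, hyE', ih, pow_succ',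
          Module.End.mul_apply]
    rw [this, hyr]
    rfl
  refine ⟨x, φ, ⟨hx, ?_, ?_, ?_, hxO⟩, ?_, hφ⟩
  · apply LinearMap.ext
    intro v
    obtain ⟨w, z, hz, rfl⟩ := hdec v
    rw [map_add, hpowW, hpowO r z hz, hyEr, Module.End.one_apply, φ.apply_symm_apply,
      Module.End.one_apply]
  · intro v hv
    rw [hxW ⟨v, hv⟩]
    exact (φ _).2
  · rw [eq_bot_iff]
    intro v hv
    rw [Submodule.mem_bot]
    have h1 := mem_ker_sub.1 hv.2
    rw [hxW ⟨v, hv.1⟩] at h1
    have h2 : φ (yE (φ.symm ⟨v, hv.1⟩)) = ⟨v, hv.1⟩ := Subtype.ext h1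
    have h3 : yE (φ.symm ⟨v, hv.1⟩) = φ.symm ⟨v, hv.1⟩ := by
      apply φ.injective
      rw [h2, φ.apply_symm_apply]
    have h4 : ((φ.symm ⟨v, hv.1⟩ : E) : V') ∈ E ⊓ LinearMap.ker (y - 1) :=
      ⟨(φ.symm ⟨v, hv.1⟩).2, mem_ker_sub.2 (congrArg Subtype.val h3)⟩
    rw [hfix, Submodule.mem_bot, Submodule.coe_eq_zero, LinearEquiv.map_eq_zero_iff] at h4
    exact congrArg Subtype.val h4
  · intro e
    rw [hxW, φ.symm_apply_apply]
    rfl

/-- The image of a subspace under an equivalence of subspaces. -/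
def push {E : Submodule F V'} {W : Submodule F V} (φ : E ≃ₗ[F] W) (Z : Submodule F V') :
    Submodule F V := ((Z.comap E.subtype).map (φ : E →ₗ[F] W)).map W.subtype

theorem mem_push {E : Submodule F V'} {W : Submodule F V} (φ : E ≃ₗ[F] W) (Z : Submodule F V')
    {v : V} : v ∈ push φ Z ↔ ∃ e : E, (e : V') ∈ Z ∧ (φ e : V) = v := by
  constructor
  · rintro ⟨_, ⟨e, he, rfl⟩, rfl⟩
    exact ⟨e, he, rfl⟩
  · rintro ⟨e, he, rfl⟩
    exact ⟨_, ⟨e, he, rfl⟩, rfl⟩

theorem push_le {E : Submodule F V'} {W : Submodule F V} (φ : E ≃ₗ[F] W) (Z : Submodule F V') :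
    push φ Z ≤ W := by
  intro v hv
  obtain ⟨e, _, rfl⟩ := (mem_push φ Z).1 hv
  exact (φ e).2

theorem finrank_push {E : Submodule F V'} {W : Submodule F V} (φ : E ≃ₗ[F] W)
    {Z : Submodule F V'} (hZ : Z ≤ E) : finrank F (push φ Z) = finrank F Z := by
  rw [push, (Submodule.equivMapOfInjective _ W.injective_subtype _).symm.finrank_eq,
    (Submodule.equivMapOfInjective _ φ.injective _).symm.finrank_eq,
    (Submodule.comapSubtypeEquivOfLe hZ).finrank_eq]

/-- `W` has no totally isotropic invariant subspaces. -/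
def Aniso (B : LinearMap.BilinForm F V) (x : Module.End F V) (W : Submodule F V) : Prop :=
  ∀ Z ≤ W, Inv x Z → TI B Z → Z = ⊥

theorem aniso_of_push {E : Submodule F V'} {W : Submodule F V} (φ : E ≃ₗ[F] W)
    {x : Module.End F V} {y : Module.End F V'} (hyE : Inv y E)
    (h1 : ∀ e : E, x (φ e : V) = (φ ⟨y e, hyE e e.2⟩ : V))
    (h2 : ∀ u v : E, B (φ u : V) (φ v : V) = B' (u : V') v) (h : Aniso B' y E) :
    Aniso B x W := by
  intro Z hZ hZx hZT
  have h3 : push φ.symm Z = ⊥ := by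
    apply h _ (push_le _ _)
    · intro v hv
      obtain ⟨w, hw, rfl⟩ := (mem_push φ.symm Z).1 hv
      rw [mem_push]
      have h4 := h1 (φ.symm w)
      rw [φ.apply_symm_apply] at h4
      refine ⟨φ ⟨y (φ.symm w), hyE _ (φ.symm w).2⟩, ?_, by rw [φ.symm_apply_apply]⟩
      rw [← h4]
      exact hZx _ hw
    · intro u hu v hv
      obtain ⟨a, ha, rfl⟩ := (mem_push φ.symm Z).1 hu
      obtain ⟨b, hb, rfl⟩ := (mem_push φ.symm Z).1 hv
      rw [← h2, φ.apply_symm_apply, φ.apply_symm_apply]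
      exact hZT _ ha _ hb
  have h4 := finrank_push φ.symm hZ
  rw [h3, finrank_bot] at h4
  exact Submodule.finrank_eq_zero.1 h4.symm

/-- The anisotropic elements. -/
theorem exists_aniso [Fintype F] (hA : B.IsAlt) {r : ℕ} [Fact r.Prime] (hr2 : r ≠ 2)
    (hrF : (r : F) ≠ 0) (hev : Even (orderOf ((Fintype.card F : ℕ) : ZMod r))) {t : ℕ}
    (ht : orderOf ((Fintype.card F : ℕ) : ZMod r) * t ≤ r - 1)
    {W : Submodule F V} (hW : Nd B W)
    (hWf : finrank F W = orderOf ((Fintype.card F : ℕ) : ZMod r) * t) :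
    ∃ x : Module.End F V, FreeOn B x r W ∧ Aniso B x W := by
  have hord := SympSemi.orderOf_pos (coprime_card (F := F) hrF)
  have hcc : cc (Fintype.card F) r = orderOf ((Fintype.card F : ℕ) : ZMod r) := by
    rw [cc, if_pos hev]
  obtain ⟨E, hE1, hE2, hE3, hE4⟩ := exists_mul (B := Shift.bf r F) Shift.bf_alt hr2 hrF
    Shift.sh_pow Shift.bf_isom hord t (Shift.sz r F) (Shift.nd_sz hr2 hrF) Shift.inv_sz
    (Shift.sz_fix hrF) (by rw [hcc, Shift.finrank_sz]; exact ht)
  obtain ⟨x, φ, h1, h2, h3⟩ := exists_transport (B := B) (B' := Shift.bf r F) hA Shift.bf_alt hE2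
    hW (by rw [hE4, hWf, hcc]) Shift.bf_isom Shift.sh_pow hE3 (by
      rw [eq_bot_iff, ← Shift.sz_fix hrF]
      exact inf_le_inf_right _ hE1)
  refine ⟨x, h1, aniso_of_push φ hE3 h2 h3 ?_⟩
  intro Z hZ hZx hZT
  exact Shift.aniso hr2 hrF hev (hZ.trans hE1) hZx hZT

/-! ### Hyperbolic elements -/

section hyp

variable {U : Type*} [AddCommGroup U] [Module F U] [FiniteDimensional F U]

/-- The hyperbolic form on `U × U*`. -/
def hb (F U : Type*) [Field F] [AddCommGroup U] [Module F U] :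
    LinearMap.BilinForm F (U × Module.Dual F U) :=
  LinearMap.mk₂ F (fun u v => u.2 v.1 - v.2 u.1)
    (fun u u' v => by
      rw [Prod.snd_add, Prod.fst_add, LinearMap.add_apply, map_add]; ring)
    (fun c u v => by
      rw [Prod.smul_snd, Prod.smul_fst, LinearMap.smul_apply, map_smul, smul_eq_mul, smul_eq_mul,
        smul_eq_mul]; ring)
    (fun u v v' => by
      rw [Prod.snd_add, Prod.fst_add, LinearMap.add_apply, map_add]; ring)
    (fun c u v => by
      rw [Prod.smul_snd, Prod.smul_fst, LinearMap.smul_apply, map_smul, smul_eq_mul, smul_eq_mul,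
        smul_eq_mul]; ring)

theorem hb_apply (u v : U × Module.Dual F U) : hb F U u v = u.2 v.1 - v.2 u.1 := rfl

theorem hb_alt : (hb F U).IsAlt := fun _ => sub_self _

theorem hb_nd : Nd (hb F U) ⊤ := by
  intro uf _ h0
  obtain ⟨u, f⟩ := uf
  by_contra hcon
  push Not at hcon
  apply h0
  have h1 : ∀ (v : U) (g : Module.Dual F U), f v - g u = 0 := fun v g => hcon (v, g) mem_top
  have h2 : f = 0 := LinearMap.ext fun v => by simpa using h1 v 0
  have h3 : u = 0 := (Module.forall_dual_apply_eq_zero_iff F u).1 fun g => by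
    have := h1 0 g
    rwa [map_zero, zero_sub, neg_eq_zero] at this
  rw [h2, h3]
  rfl

/-- The action of `A` on `U × U*` for `A ^ r = 1`. -/
def hy (A : Module.End F U) (r : ℕ) : Module.End F (U × Module.Dual F U) :=
  LinearMap.prodMap A (LinearMap.lcomp F F (A ^ (r - 1)))

theorem hy_apply (A : Module.End F U) (r : ℕ) (u : U × Module.Dual F U) :
    hy A r u = (A u.1, u.2.comp (A ^ (r - 1))) := rfl

theorem hy_isom {A : Module.End F U} {r : ℕ} (hr : 0 < r) (hA : A ^ r = 1)
    (u v : U × Module.Dual F U) : hb F U (hy A r u) (hy A r v) = hb F U u v := by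
  have h1 : ∀ w, (A ^ (r - 1)) (A w) = w := by
    intro w
    rw [← Module.End.mul_apply, ← pow_succ, Nat.sub_add_cancel hr, hA, Module.End.one_apply]
  rw [hb_apply, hb_apply, hy_apply, hy_apply]
  show u.2 ((A ^ (r - 1)) (A v.1)) - v.2 ((A ^ (r - 1)) (A u.1)) = _
  rw [h1, h1]

theorem hy_pow {A : Module.End F U} {r : ℕ} (n : ℕ) (u : U × Module.Dual F U) :
    (hy A r ^ n) u = ((A ^ n) u.1, u.2.comp (A ^ ((r - 1) * n))) := by
  induction n with
  | zero => rw [pow_zero, pow_zero, mul_zero, pow_zero]; rfl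
  | succ n ih =>
    rw [pow_succ', Module.End.mul_apply, ih, hy_apply, pow_succ', Module.End.mul_apply]
    refine Prod.ext rfl ?_
    show (u.2.comp (A ^ ((r - 1) * n))).comp (A ^ (r - 1)) = u.2.comp (A ^ ((r - 1) * (n + 1)))
    rw [LinearMap.comp_assoc, ← Module.End.mul_eq_comp, ← pow_add]
    congr 2

theorem hy_pow_r {A : Module.End F U} {r : ℕ} (hA : A ^ r = 1) : hy A r ^ r = 1 := by
  apply LinearMap.ext
  intro u
  rw [hy_pow, hA, mul_comm, pow_mul, hA, one_pow]
  rfl

theorem hy_fix {A : Module.End F U} {r : ℕ} (hr : 0 < r) (hA : A ^ r = 1)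
    (hfix : LinearMap.ker (A - 1) = ⊥) :
    LinearMap.ker (hy A r - 1) = ⊥ := by
  rw [LinearMap.ker_eq_bot']
  intro u hu
  rw [LinearMap.sub_apply, Module.End.one_apply, sub_eq_zero, hy_apply] at hu
  have h1 : A u.1 = u.1 := congrArg Prod.fst hu
  have h2 : u.2.comp (A ^ (r - 1)) = u.2 := congrArg Prod.snd hu
  have h3 : u.1 = 0 := by
    have : u.1 ∈ LinearMap.ker (A - 1) := by
      rw [LinearMap.mem_ker, LinearMap.sub_apply, Module.End.one_apply, h1, sub_self]
    rwa [hfix, Submodule.mem_bot] at this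
  have h4 : ∀ w, u.2 (A w) = u.2 w := by
    intro w
    conv_lhs => rw [← h2]
    rw [LinearMap.comp_apply, ← Module.End.mul_apply, ← pow_succ, Nat.sub_add_cancel hr, hA,
      Module.End.one_apply]
  have h5 : Function.Surjective ((A - 1 : Module.End F U) : U → U) :=
    LinearMap.surjective_of_injective (LinearMap.ker_eq_bot.1 hfix)
  have h6 : u.2 = 0 := by
    apply LinearMap.ext
    intro w
    obtain ⟨z, rfl⟩ := h5 w
    rw [LinearMap.sub_apply, Module.End.one_apply, map_sub, h4, sub_self, LinearMap.zero_apply]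
  exact Prod.ext h3 h6

end hyp

theorem exists_hyp_aux {U : Type*} [AddCommGroup U] [Module F U] [FiniteDimensional F U]
    (hA : B.IsAlt) {r : ℕ} (hr : 0 < r) {A : Module.End F U} (hA1 : A ^ r = 1)
    (hAf : LinearMap.ker (A - 1) = ⊥) {W : Submodule F V} (hW : Nd B W)
    (hWf : finrank F W = 2 * finrank F U) :
    ∃ x : Module.End F V, FreeOn B x r W ∧ ∃ L ≤ W, Inv x L ∧ TI B L ∧
      finrank F L = finrank F U := by
  obtain ⟨x, φ, h1, h2, h3⟩ := exists_transport (B := B) (B' := hb F U) (E := ⊤) hA hb_alt hb_nd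
    hW (by rw [finrank_top, Module.finrank_prod, Subspace.dual_finrank_eq, hWf]; omega)
    (hy_isom hr hA1) (hy_pow_r hA1) (fun v _ => mem_top) (by
      rw [top_inf_eq]; exact hy_fix hr hA1 hAf)
  refine ⟨x, h1, push φ (Submodule.prod ⊤ ⊥), push_le _ _, ?_, ?_, ?_⟩
  · intro v hv
    obtain ⟨e, he, rfl⟩ := (mem_push φ _).1 hv
    rw [h2, mem_push]
    refine ⟨_, ?_, rfl⟩
    rw [Submodule.mem_prod] at he ⊢
    refine ⟨mem_top, ?_⟩
    have h5 : (e : U × Module.Dual F U).2 = 0 := he.2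
    show ((e : U × Module.Dual F U).2.comp (A ^ (r - 1))) ∈ _
    rw [h5, LinearMap.zero_comp]
    exact Submodule.zero_mem _
  · intro u hu v hv
    obtain ⟨a, ha, rfl⟩ := (mem_push φ _).1 hu
    obtain ⟨b, hb', rfl⟩ := (mem_push φ _).1 hv
    rw [h3, hb_apply]
    have h5 : (a : U × Module.Dual F U).2 = 0 := ha.2
    have h6 : (b : U × Module.Dual F U).2 = 0 := hb'.2
    rw [h5, h6, LinearMap.zero_apply, LinearMap.zero_apply, sub_self]
  · rw [finrank_push φ le_top, H952.Jordan.finrank_prod_submodule, finrank_top, finrank_bot,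
      add_zero]

/-- Elements with an invariant Lagrangian. -/
theorem exists_hyp [Fintype F] (hA : B.IsAlt) {r : ℕ} [Fact r.Prime]
    (hrF : (r : F) ≠ 0) {t : ℕ} {W : Submodule F V} (hW : Nd B W)
    (hWf : finrank F W = 2 * (orderOf ((Fintype.card F : ℕ) : ZMod r) * t)) :
    ∃ x : Module.End F V, FreeOn B x r W ∧ ∃ L ≤ W, Inv x L ∧ TI B L ∧
      finrank F L = orderOf ((Fintype.card F : ℕ) : ZMod r) * t := by
  have hr := (Fact.out : r.Prime)
  obtain ⟨P, hP1, hP2⟩ := H951.exists_factor_cyclotomic (F := F) r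
  obtain ⟨A, hA1, hA2, -⟩ := H951.exists_end hrF hP1 hP2 (M := t) le_rfl
  have hUf : finrank F (Fin (orderOf ((Fintype.card F : ℕ) : ZMod r) * t) → F) =
      orderOf ((Fintype.card F : ℕ) : ZMod r) * t := by
    rw [Module.finrank_fintype_fun_eq_card, Fintype.card_fin]
  have hAf : LinearMap.ker (A - 1) = ⊥ := by
    have h1 := LinearMap.finrank_range_add_finrank_ker (A - 1)
    have h2 : finrank F (LinearMap.range (A - 1)) =
      orderOf ((Fintype.card F : ℕ) : ZMod r) * t := hA2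
    rw [h2, hUf] at h1
    exact Submodule.finrank_eq_zero.1 (by omega)
  obtain ⟨x, hx, L, h1, h2, h3, h4⟩ := exists_hyp_aux hA hr.pos hA1 hAf hW (by rw [hWf, hUf])
  exact ⟨x, hx, L, h1, h2, h3, by rw [h4, hUf]⟩

theorem nondeg_of_nd (hA : B.IsAlt) (hV : Nd B ⊤) : B.Nondegenerate := by
  refine ⟨fun u hu => ?_, fun u hu => ?_⟩
  · by_contra h0
    obtain ⟨v, _, hne⟩ := hV u mem_top h0
    exact hne (hu v)
  · by_contra h0
    obtain ⟨v, _, hne⟩ := hV u mem_top h0
    exact hne (eq_zero_swap hA (hu v))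

/-- `T ⊓ Lᗮ = (Tᗮ ⊔ L)ᗮ`. -/
theorem inf_orth (hA : B.IsAlt) (hV : Nd B ⊤) (T L : Submodule F V) :
    T ⊓ B.orthogonal L = B.orthogonal (B.orthogonal T ⊔ L) := by
  ext v
  rw [mem_orth hA]
  constructor
  · rintro ⟨h3, h4⟩ u hu
    obtain ⟨a, ha, b, hb, rfl⟩ := Submodule.mem_sup.1 hu
    rw [map_add, eq_zero_swap hA ((mem_orth hA).1 ha v h3), (mem_orth hA).1 h4 b hb, add_zero]
  · intro h3
    refine ⟨?_, ?_⟩
    · rw [← LinearMap.BilinForm.orthogonal_orthogonal (nondeg_of_nd hA hV) hA.isRefl T,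
        SetLike.mem_coe, mem_orth hA]
      exact fun u hu => h3 u (Submodule.mem_sup_left hu)
    · show v ∈ B.orthogonal L
      rw [mem_orth hA]
      exact fun u hu => h3 u (Submodule.mem_sup_right hu)

/-- The dimension of a totally isotropic subspace compared with a Lagrangian. -/
theorem finrank_le_of_inf_le (hA : B.IsAlt) (hV : Nd B ⊤) {T L : Submodule F V}
    (hT : TI B T) (h : T ⊓ B.orthogonal L ≤ L) : finrank F T ≤ finrank F L := by
  have hnd := nondeg_of_nd hA hV
  have h1 : T ⊓ B.orthogonal L ≤ B.orthogonal T ⊓ L := by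
    refine le_inf ?_ h
    intro v hv
    rw [mem_orth hA]
    exact fun u hu => hT v hv.1 u hu
  have h2 := inf_orth hA hV T L
  have h3 := LinearMap.BilinForm.finrank_orthogonal hnd (B.orthogonal T ⊔ L)
  have h4 := LinearMap.BilinForm.finrank_orthogonal hnd T
  have h5 := Submodule.finrank_sup_add_finrank_inf_eq (B.orthogonal T) L
  have h6 := Submodule.finrank_mono h1
  have h7 := Submodule.finrank_le T
  have h8 := Submodule.finrank_le (B.orthogonal T ⊔ L)
  rw [h2] at h6
  omega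

/-- `dim (W ∩ Lᗮ) = dim W - dim L` for `L` in a non-degenerate `W`. -/
theorem finrank_inf_orth (hA : B.IsAlt) (hV : Nd B ⊤) {W L : Submodule F V} (hW : Nd B W)
    (hL : L ≤ W) : finrank F (W ⊓ B.orthogonal L : Submodule F V) + finrank F L =
      finrank F W := by
  have hnd := nondeg_of_nd hA hV
  rw [inf_orth hA hV W L, LinearMap.BilinForm.finrank_orthogonal hnd]
  have h4 := LinearMap.BilinForm.finrank_orthogonal hnd W
  have h5 := Submodule.finrank_sup_add_finrank_inf_eq (B.orthogonal W) L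
  have h6 : B.orthogonal W ⊓ L = ⊥ := by
    rw [eq_bot_iff]
    rintro v ⟨h7, h8⟩
    exact (hW.disjoint hA).le_bot ⟨hL h8, h7⟩
  rw [h6, finrank_bot] at h5
  have h7 := Submodule.finrank_le W
  have h8 := Submodule.finrank_le (B.orthogonal W ⊔ L)
  omega

theorem TI.two_mul_le (hA : B.IsAlt) (hV : Nd B ⊤) {W T : Submodule F V} (hW : Nd B W)
    (hTW : T ≤ W) (hT : TI B T) : 2 * finrank F T ≤ finrank F W := by
  have h1 := finrank_inf_orth hA hV hW hTW
  have h2 : T ≤ W ⊓ B.orthogonal T := by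
    refine le_inf hTW fun v hv => ?_
    rw [mem_orth hA]
    exact fun u hu => hT v hv u hu
  have h3 := Submodule.finrank_mono h2
  omega

/-- Invariant totally isotropic subspaces of an anisotropic plus a hyperbolic space. -/
theorem finrank_le_of_aniso (hA : B.IsAlt) (hV : Nd B ⊤) {x : Module.End F V}
    {W1 W2 L T : Submodule F V}
    (hW2 : Nd B W2) (ho : ∀ u ∈ W1, ∀ v ∈ W2, B u v = 0) (hW1x : Inv x W1)
    (han : Aniso B x W1) (hLW : L ≤ W2) (hLx : Inv x L) (hLT : TI B L)
    (hLf : 2 * finrank F L = finrank F W2) (hTW : T ≤ W1 ⊔ W2) (hTx : Inv x T) (hT : TI B T) :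
    finrank F T ≤ finrank F L := by
  apply finrank_le_of_inf_le hA hV hT
  have hW2L : W2 ⊓ B.orthogonal L = L := by
    symm
    apply Submodule.eq_of_le_of_finrank_eq
    · refine le_inf hLW fun v hv => ?_
      rw [mem_orth hA]
      exact fun u hu => hLT v hv u hu
    · have := finrank_inf_orth hA hV hW2 hLW
      omega
  have hZ : W1 ⊓ (T ⊔ L) = ⊥ := by
    apply han _ inf_le_left (Inv.inf hW1x (Inv.sup hTx hLx))
    rintro a ⟨ha, hat⟩ a' ⟨ha', hat'⟩
    obtain ⟨t, ht, l, hl, rfl⟩ := Submodule.mem_sup.1 hat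
    obtain ⟨t', ht', l', hl', rfl⟩ := Submodule.mem_sup.1 hat'
    have h1 : B t l' = 0 := by
      have := ho _ ha l' (hLW hl')
      rw [map_add, LinearMap.add_apply, hLT l hl l' hl', add_zero] at this
      exact this
    have h2 : B l t' = 0 := by
      have := eq_zero_swap hA (ho _ ha' l (hLW hl))
      rw [map_add, hLT l hl l' hl', add_zero] at this
      exact this
    rw [map_add, map_add, LinearMap.add_apply, LinearMap.add_apply, hT t ht t' ht', h1, h2,
      hLT l hl l' hl']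
    simp
  rintro v ⟨hvT, hvL⟩
  obtain ⟨a, ha, b, hb, rfl⟩ := Submodule.mem_sup.1 (hTW hvT)
  have hbL : b ∈ L := by
    rw [← hW2L]
    refine ⟨hb, ?_⟩
    show b ∈ B.orthogonal L
    rw [mem_orth hA]
    intro l hl
    have h1 := (mem_orth hA).1 hvL l hl
    rw [map_add, LinearMap.add_apply, ho a ha l (hLW hl), zero_add] at h1
    exact h1
  have ha0 : a ∈ W1 ⊓ (T ⊔ L) := by
    refine ⟨ha, ?_⟩
    have : a = (a + b) - b := by abel
    rw [this]
    exact Submodule.sub_mem _ (Submodule.mem_sup_left hvT) (Submodule.mem_sup_right hbL)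
  rw [hZ, Submodule.mem_bot] at ha0
  rw [ha0, zero_add]
  exact hbL

theorem FreeOn.range_le (hA : B.IsAlt) {r : ℕ} {x : Module.End F V} {W : Submodule F V}
    (hW : Nd B W) (hx : FreeOn B x r W) (v : V) : (x - 1) v ∈ W := by
  have : v ∈ W ⊔ B.orthogonal W := by rw [(hW.isCompl hA).sup_eq_top]; exact Submodule.mem_top
  obtain ⟨a, ha, b, hb, rfl⟩ := Submodule.mem_sup.1 this
  rw [LinearMap.sub_apply, Module.End.one_apply, map_add, hx.triv b hb, add_sub_add_right_eq_sub]
  exact Submodule.sub_mem _ (hx.inv a ha) ha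

/-- The sharp elements. -/
theorem exists_sharp [Fintype F] (hA : B.IsAlt) (hV : Nd B ⊤) {r : ℕ} [Fact r.Prime]
    (hr2 : r ≠ 2) (hrF : (r : F) ≠ 0)
    (hev : Even (orderOf ((Fintype.card F : ℕ) : ZMod r))) {t b : ℕ}
    (ht : orderOf ((Fintype.card F : ℕ) : ZMod r) * t ≤ r - 1)
    (hd : orderOf ((Fintype.card F : ℕ) : ZMod r) * t +
      2 * (orderOf ((Fintype.card F : ℕ) : ZMod r) * b) ≤ finrank F V) :
    ∃ x : Module.End F V, (∀ u v, B (x u) (x v) = B u v) ∧ x ^ r = 1 ∧ (0 < t + b → x ≠ 1) ∧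
      ∀ T : Submodule F V, TI B T → Inv x T → ∃ b' f, b' ≤ b ∧
        2 * f + (orderOf ((Fintype.card F : ℕ) : ZMod r) * t +
      2 * (orderOf ((Fintype.card F : ℕ) : ZMod r) * b)) ≤ finrank F V ∧
        finrank F T = orderOf ((Fintype.card F : ℕ) : ZMod r) * b' + f := by
  have hord := SympSemi.orderOf_pos (coprime_card (F := F) hrF)
  have hr := (Fact.out : r.Prime)
  set i := orderOf ((Fintype.card F : ℕ) : ZMod r) with hi
  obtain ⟨k, hk⟩ := hev.mul_right t
  obtain ⟨W1, _, hW1, hW1f⟩ := exists_even_dim hA k ⊤ hV (by rw [finrank_top]; omega)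
  have hO := nd_orth hA hV hW1
  have hOf := finrank_orth hA hW1
  obtain ⟨W2, hW2O, hW2, hW2f⟩ := exists_even_dim hA (i * b) (B.orthogonal W1) hO (by omega)
  have ho : ∀ u ∈ W1, ∀ v ∈ W2, B u v = 0 := fun u hu v hv =>
    eq_zero_swap hA ((mem_orth hA).1 (hW2O hv) u hu)
  have ho' : ∀ u ∈ W2, ∀ v ∈ W1, B u v = 0 := fun u hu v hv => eq_zero_swap hA (ho v hv u hu)
  obtain ⟨x1, hx1, han⟩ := exists_aniso hA hr2 hrF hev ht hW1 (by rw [← hi]; omega)
  obtain ⟨x2, hx2, L, hLW, hLx, hLT, hLf⟩ := exists_hyp hA hrF (t := b) hW2 (by rw [hW2f])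
  rw [← hi] at hLf
  have hx := FreeOn.mul hA hW1 hW2 ho hx1 hx2
  have hNd := Nd.sup hA hW1 hW2 ho
  have e1 : ∀ v ∈ W1, (x1 * x2) v = x1 v := by
    intro v hv
    rw [Module.End.mul_apply, hx2.triv v ((mem_orth hA).2 fun u hu => ho v hv u hu)]
  have e2 : ∀ v ∈ W2, (x1 * x2) v = x2 v := by
    intro v hv
    rw [Module.End.mul_apply, hx1.triv]
    exact (mem_orth hA).2 fun u hu => ho' _ (hx2.inv v hv) u hu
  have hsup : finrank F (W1 ⊔ W2 : Submodule F V) = i * t + 2 * (i * b) := by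
    have := Submodule.finrank_sup_add_finrank_inf_eq W1 W2
    rw [(disjoint_of_orth hA hW1 ho).eq_bot, finrank_bot] at this
    omega
  refine ⟨x1 * x2, hx.isom, hx.pow, ?_, ?_⟩
  · intro htb h1
    have h2 := hx.finrank_range hA hNd
    rw [h1, sub_self, LinearMap.range_zero, finrank_bot, hsup] at h2
    have : 0 < i * t + 2 * (i * b) := by
      rcases Nat.eq_zero_or_pos t with h | h
      · have := Nat.mul_pos hord (show 0 < b by omega)
        omega
      · have := Nat.mul_pos hord h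
        omega
    omega
  · intro T hT hTx
    set x := x1 * x2 with hxdef
    have hT1T : T.map (x - 1) ≤ T := map_sub_le hTx
    have hT1x : Inv x (T.map (x - 1)) := inv_map_sub hTx
    have hT1 : TI B (T.map (x - 1)) := fun u hu v hv => hT u (hT1T hu) v (hT1T hv)
    have hfix := comm_inf_ker hrF hx.pow T
    obtain ⟨b', hb'⟩ := orderOf_dvd_finrank hx.pow hT1x hfix
    rw [← hi] at hb'
    have hle : finrank F (T.map (x - 1)) ≤ finrank F L := by
      refine finrank_le_of_aniso hA hV hW2 ho (x := x) ?_ ?_ hLW ?_ hLT (by omega) ?_ hT1x hT1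
      · intro v hv
        rw [e1 v hv]
        exact hx1.inv v hv
      · intro Z hZ hZx hZT
        apply han Z hZ _ hZT
        intro v hv
        have := hZx v hv
        rwa [e1 v (hZ hv)] at this
      · intro v hv
        rw [e2 v (hLW hv)]
        exact hLx v hv
      · rintro _ ⟨v, _, rfl⟩
        exact FreeOn.range_le hA hNd hx v
    rw [hb', hLf] at hle
    refine ⟨b', finrank F (T ⊓ LinearMap.ker (x - 1) : Submodule F V),
      Nat.le_of_mul_le_mul_left hle hord, ?_, ?_⟩
    · have hker : T ⊓ LinearMap.ker (x - 1) ≤ B.orthogonal (W1 ⊔ W2) := by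
        rintro v ⟨_, hv⟩
        rw [mem_orth hA]
        intro u hu
        have h1 : finrank F (LinearMap.ker (x - 1)) = finrank F V - finrank F (W1 ⊔ W2 : Submodule F V) := by
          have := LinearMap.finrank_range_add_finrank_ker (x - 1)
          rw [hx.finrank_range hA hNd] at this
          omega
        have h2 : B.orthogonal (W1 ⊔ W2) ≤ LinearMap.ker (x - 1) := fun z hz =>
          mem_ker_sub.2 (hx.triv z hz)
        have h3 := finrank_orth hA hNd
        have h4 := Submodule.eq_of_le_of_finrank_eq h2 (by omega)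
        rw [← h4] at hv
        exact (mem_orth hA).1 hv u hu
      have h5 := TI.two_mul_le hA hV (nd_orth hA hV hNd) hker
        (fun u hu v hv => hT u hu.1 v hv.1)
      have h6 := finrank_orth hA hNd
      omega
    · rw [← hb', ← finrank_fix_add (x := x) (W := T)]
      ring

end Cfsg.Agent.H952.TiSub
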