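import Mathlib
import Cfsg.Agent.H952.TiExist
import Cfsg.Agent.H950.Elt

/-!
Invariant totally isotropic subspaces for isometries with `x² = ±1` (odd characteristic).
-/

set_option autoImplicit false
set_option linter.unusedSectionVars false

namespace Cfsg.Agent.H952.TiSub

open Module Submodule Polynomial
open Cfsg.Agent.H952.Alt Cfsg.Agent.H952.Semi Cfsg.Agent.H952.SympSemi

variable {F V : Type*} [Field F] [AddCommGroup V] [Module F V] [FiniteDimensional F V]
  {B : LinearMap.BilinForm F V} {x : Module.End F V}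

/-- An invariant plane with an invariant line. -/
theorem exists_eigen_plane (hA : B.IsAlt) (hx : ∀ u v, B (x u) (x v) = B u v)
    (h2 : (2 : F) ≠ 0) {z s : F} (hz : z * z = 1) (hs : s * s = z) (hxx : ∀ v, x (x v) = z • v)
    {W : Submodule F V} (hW : Nd B W) (hWx : Inv x W) (hW0 : W ≠ ⊥) :
    ∃ E ≤ W, Nd B E ∧ Inv x E ∧ finrank F E = 2 ∧ ∃ e ∈ E, e ≠ 0 ∧ ∃ l : F, x e = l • e := by
  obtain ⟨u, huW, hu0⟩ := (Submodule.ne_bot_iff W).1 hW0
  have he : ∃ (e : V) (l : F), e ∈ W ∧ e ≠ 0 ∧ l * l = z ∧ x e = l • e := by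
    by_cases h : x u + s • u = 0
    · refine ⟨u, -s, huW, hu0, by rw [neg_mul_neg, hs], ?_⟩
      rw [neg_smul]
      exact eq_neg_of_add_eq_zero_left h
    · refine ⟨x u + s • u, s, W.add_mem (hWx u huW) (W.smul_mem _ huW), h, hs, ?_⟩
      rw [map_add, map_smul, hxx, smul_add, smul_smul, hs, add_comm]
  obtain ⟨e, l, heW, he0, hl, hxe⟩ := he
  obtain ⟨w, hwW, hne⟩ := hW e heW he0
  have hl0 : l ≠ 0 := by
    rintro rfl
    rw [mul_zero] at hl
    rw [← hl, mul_zero] at hz
    exact zero_ne_one hz
  have hz0 : z ≠ 0 := by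
    rintro rfl
    rw [mul_zero] at hz
    exact zero_ne_one hz
  have hB : B e (x w) = z * l * B e w := by
    have h1 := hx e w
    rw [hxe, LinearMap.map_smul₂, smul_eq_mul] at h1
    rw [← h1, ← mul_assoc, mul_assoc z l l, hl, hz, one_mul]
  have hw' : x (x w + (z * l) • w) = (z * l) • (x w + (z * l) • w) := by
    rw [map_add, map_smul, hxx, smul_add, smul_smul]
    have : z * l * (z * l) = z := by
      have e1 : z * l * (z * l) = z * z * (l * l) := by ring
      rw [e1, hz, hl, one_mul]
    rw [this, add_comm]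
  have hne' : B e (x w + (z * l) • w) ≠ 0 := by
    rw [map_add, map_smul, hB, smul_eq_mul, ← two_mul]
    exact mul_ne_zero h2 (mul_ne_zero (mul_ne_zero hz0 hl0) hne)
  refine ⟨span F {e, x w + (z * l) • w}, ?_, Nd.pair hA hne', ?_, finrank_pair hA hne',
    e, Submodule.subset_span (Or.inl rfl), he0, l, hxe⟩
  · rw [span_le]
    rintro y (rfl | rfl)
    · exact heW
    · exact W.add_mem (hWx w hwW) (W.smul_mem _ hwW)
  · intro y hy
    have : (span F {e, x w + (z * l) • w}).map x ≤ span F {e, x w + (z * l) • w} := by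
      rw [Submodule.map_span_le]
      rintro y (rfl | rfl)
      · rw [hxe]
        exact Submodule.smul_mem _ _ (Submodule.subset_span (Or.inl rfl))
      · rw [hw']
        exact Submodule.smul_mem _ _ (Submodule.subset_span (Or.inr rfl))
    exact this ⟨y, hy, rfl⟩

/-- All dimensions if the eigenvalues are in the field. -/
theorem exists_ti_eigen (hA : B.IsAlt) (hinj : Function.Injective x)
    (hx : ∀ u v, B (x u) (x v) = B u v)
    (h2 : (2 : F) ≠ 0) {z s : F} (hz : z * z = 1) (hs : s * s = z) (hxx : ∀ v, x (x v) = z • v)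
    (m : ℕ) : ∀ {W : Submodule F V}, Nd B W → Inv x W → 2 * m ≤ finrank F W →
      ∃ T ≤ W, TI B T ∧ Inv x T ∧ finrank F T = m := by
  induction m with
  | zero => exact fun {W} _ _ _ => ⟨⊥, bot_le, TI.bot, fun v hv => by
      rw [(Submodule.mem_bot F).1 hv, map_zero]; exact Submodule.zero_mem _, by simp⟩
  | succ m ih =>
    intro W hW hWx hm
    have hW0 : W ≠ ⊥ := by
      rintro rfl
      rw [finrank_bot] at hm
      omega
    obtain ⟨E, hE1, hE2, hE3, hE4, e, he, he0, l, hl⟩ :=
      exists_eigen_plane hA hx h2 hz hs hxx hW hWx hW0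
    have hs' := split_finrank hA hE2 hE1
    obtain ⟨T, hT1, hT2, hT3, hT4⟩ := ih (split_nd hA hW hE2 hE1)
      (split_inv hA hinj hx hWx hE3) (by omega)
    have ho : ∀ u ∈ E, ∀ v ∈ T, B u v = 0 := fun u hu v hv =>
      split_orth hA u hu v (hT1 hv)
    have hsp : span F {e} ≤ E := by
      rw [span_le]
      rintro y rfl
      exact he
    refine ⟨span F {e} ⊔ T, sup_le (hsp.trans hE1) (hT1.trans inf_le_left),
      TI.sup hA (TI.singleton hA e) hT2 (fun u hu v hv => ho u (hsp hu) v hv),
      Inv.sup ?_ hT3, ?_⟩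
    · intro v hv
      obtain ⟨c, rfl⟩ := Submodule.mem_span_singleton.1 hv
      rw [map_smul, hl, smul_smul]
      exact Submodule.mem_span_singleton.2 ⟨_, rfl⟩
    · have hd := (disjoint_of_orth hA hE2 ho).mono_left hsp
      have := finrank_sup_add_finrank_inf_eq (span F {e}) T
      rw [hd.eq_bot, finrank_bot, finrank_span_singleton he0] at this
      omega

/-- Even dimensions if `-1` is not a square. -/
theorem exists_ti_even [Fintype F] (hA : B.IsAlt) (hV : Nd B ⊤) (hinj : Function.Injective x)
    (hx : ∀ u v, B (x u) (x v) = B u v) (h2 : (2 : F) ≠ 0) (hns : ¬ IsSquare (-1 : F))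
    (hxx : ∀ v, x (x v) = - v) {m : ℕ} (hme : Even m) (hm : 2 * m ≤ finrank F V) :
    ∃ T : Submodule F V, TI B T ∧ Inv x T ∧ finrank F T = m := by
  have hB := frm (F := F) hA
  have hss : x.IsSemisimple := by
    refine H951.semisimple_of_pow (r := 4) ?_ ?_
    · have : ((4 : ℕ) : F) = 2 * 2 := by norm_num
      rw [this]
      exact mul_ne_zero h2 h2
    · apply LinearMap.ext
      intro v
      show x (x (x (x v))) = v
      rw [hxx, hxx, neg_neg]
  have hdeg : (X ^ 2 + 1 : F[X]).natDegree = 2 := by
    rw [show (X ^ 2 + 1 : F[X]) = X ^ 2 + C 1 by rw [C_1]]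
    exact natDegree_X_pow_add_C
  have hirr : Irreducible (X ^ 2 + 1 : F[X]) := by
    refine irreducible_of_degree_le_three_of_not_isRoot (by rw [hdeg]; decide) ?_
    intro a ha
    rw [IsRoot, eval_add, eval_pow, eval_X, eval_one] at ha
    exact hns ⟨a, by rw [← sq]; exact (eq_neg_of_add_eq_zero_left ha).symm⟩
  have hkill : aeval x (X ^ 2 + 1 : F[X]) = 0 := by
    rw [map_add, map_pow, aeval_X, map_one]
    apply LinearMap.ext
    intro v
    show x (x v) + v = 0
    rw [hxx, neg_add_cancel]
  obtain ⟨T, W1, -, -, hTx, hTI, hW1x, hW1n, hf, han⟩ := H950.exists_witt hB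
      (fun W hW => by
        intro v hv w hw
        rw [← Inv.map_eq hinj (show Inv x W from hW)] at hw
        obtain ⟨w', hw', rfl⟩ := hw
        show B (x v) (x w') = 0
        rw [hx]
        exact hv w' hw') hss (W := ⊤) (fun v _ => mem_top) hV
  have hW1 : finrank F W1 ≤ 2 := by
    by_contra hcon
    push Not at hcon
    obtain ⟨v, hv, hv0, hvx⟩ := H950.exists_vector_id (x := x) hB W1 {1}
      (by rw [Finset.card_singleton]; omega)
    have h1 : B v (x v) = 0 := by
      have := hvx 1 (Finset.mem_singleton_self 1)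
      rwa [pow_one] at this
    have h3 := han (span F {v, x v}) (by
      rw [span_le]
      rintro y (rfl | rfl)
      · exact hv
      · exact hW1x v hv) (by
      intro y hy
      have : (span F {v, x v}).map x ≤ span F {v, x v} := by
        rw [Submodule.map_span_le]
        rintro y (rfl | rfl)
        · exact Submodule.subset_span (Or.inr rfl)
        · rw [hxx]
          exact Submodule.neg_mem _ (Submodule.subset_span (Or.inl rfl))
      exact this ⟨y, hy, rfl⟩) (by
      have h4 : span F {v, x v} = span F {v} ⊔ span F {x v} := by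
        rw [← Submodule.span_union]; rfl
      show TI B _
      rw [h4]
      apply TI.sup hA (TI.singleton hA v) (TI.singleton hA (x v))
      intro a ha b hb
      obtain ⟨c, rfl⟩ := Submodule.mem_span_singleton.1 ha
      obtain ⟨d, rfl⟩ := Submodule.mem_span_singleton.1 hb
      rw [map_smul, map_smul, LinearMap.smul_apply, h1, smul_zero, smul_zero])
    have h5 : v ∈ (⊥ : Submodule F V) := by
      rw [← h3]
      exact Submodule.subset_span (Or.inl rfl)
    exact hv0 ((Submodule.mem_bot F).1 h5)
  have hTe : 2 ∣ finrank F T := by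
    have := H950.natDegree_dvd_of_inv hirr hkill hTx
    rwa [hdeg] at this
  have hW1e : 2 ∣ finrank F W1 := by
    have := H950.natDegree_dvd_of_inv hirr hkill hW1x
    rwa [hdeg] at this
  rw [finrank_top] at hf
  obtain ⟨k, hk⟩ := hme
  obtain ⟨U, hU, hUx, hUf⟩ := H950.exists_inv_natDegree hirr hkill hTx (j := k)
    (by rw [hdeg]; omega)
  exact ⟨U, fun u hu v hv => hTI u (hU hu) v (hU hv), hUx, by rw [hUf, hdeg]; omega⟩

/-- No invariant subspaces of odd dimension. -/
theorem isSquare_of_odd (hxx : ∀ v, x (x v) = - v) {W : Submodule F V} (hW : Inv x W)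
    (hodd : Odd (finrank F W)) : IsSquare (-1 : F) := by
  let xW : Module.End F W := x.restrict hW
  have h1 : xW * xW = (-1 : F) • (1 : Module.End F W) := by
    apply LinearMap.ext
    intro v
    apply Subtype.ext
    show x (x v) = _
    rw [hxx, LinearMap.smul_apply, Module.End.one_apply, neg_one_smul]
    rfl
  have h2 := congrArg LinearMap.det h1
  rw [map_mul, LinearMap.det_smul, map_one, mul_one, hodd.neg_one_pow] at h2
  exact ⟨_, h2.symm⟩

end Cfsg.Agent.H952.TiSub
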